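import Cfsg.Agent.Mult.StarO2
import Cfsg.Agent.Mult.FmBase
import Cfsg.Agent.Class.Orth.Plane

/-!
The `p'`-part of the multiplier of the orthogonal groups.
-/

set_option autoImplicit false

universe u v

namespace Cfsg.Agent.Mult

open Cfsg.Agent.Class.Max Cfsg.Agent.Class.Max.Fm Cfsg.Agent.RootSub Module Submodule
open scoped commutatorElement

section

variable {F V : Type*} [Field F] [AddCommGroup V] [Module F V] {Φ : Fm F V} {Y : Submodule F V}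

variable (Φ) in
/-- A norm form over `K` realised inside the quadratic space. -/
structure QK {K : Type*} [Field K] (j : F →+* K) (τ : K →+* K) (ι : K →+ V) (κ : F) : Prop where
  ne : κ ≠ 0
  inv : ∀ t, τ (τ t) = t
  fix : ∀ a, τ (j a) = j a
  smul : ∀ a t, ι (j a * t) = a • ι t
  Q : ∀ t, j (Φ.Q (ι t)) = j κ * (t * τ t)

namespace IsO

variable (S : IsO Φ)
include S

theorem c_eq {e w : V} {c : F} {g : V ≃ₗ[F] V} (h : IsE Φ e w c g) : c = Φ.Q w := by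
  rw [← h.valid.norm, S.π]

theorem uniq {e w w' : V} {c c' : F} {g g' : V ≃ₗ[F] V} (h : IsE Φ e w c g)
    (h' : IsE Φ e w' c' g') (hw : w = w') : g = g' :=
  (h.congr rfl hw (by rw [S.c_eq h, S.c_eq h', hw])).unique h'

theorem B_self (x : V) : Φ.B x x = 2 * Φ.Q x := by
  rw [← Φ.trace (Φ.Q x) x (S.π _), S.ε, S.σ]; ring

theorem n_quad {e f w : V} {c d : F} {g k : V ≃ₗ[F] V} (hef : Φ.B e f = 1) (hfw : Φ.B f w = 0)
    (hg : IsE Φ e w c g) (hk : IsE Φ f (c⁻¹ • w) d k) (hc : c ≠ 0) :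
    (g * k * g) e = (-c⁻¹) • f ∧
      ∀ v, Φ.B e v = 0 → Φ.B f v = 0 → (g * k * g) v = v - (c⁻¹ * Φ.B w v) • w := by
  have h1 : Φ.B w w = 2 * c := by rw [S.B_self, ← S.c_eq hg]
  have h2 : d = c⁻¹ := by rw [S.c_eq hk, Φ.smul, S.σ, ← S.c_eq hg]; field_simp
  have h3 := hg.valid.perp
  subst h2
  refine ⟨?_, fun v h4 h5 => ?_⟩ <;>
  · simp only [mul_app, hg.app, hk.app, ef, Φ.bsimp, hef, S.symm e f, Φ.B_self hg.valid.sing,
      Φ.B_self hk.valid.sing, h1, h3, S.symm e w, hfw, S.symm f w, S.ε, S.σ, *]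
    match_scalars <;> field_simp <;> ring

variable {K : Type*} [Field K] {j : F →+* K} {τ : K →+* K} {ι : K →+ V} {κ : F}

theorem QK_B (D : QK Φ j τ ι κ) (s t : K) :
    j (Φ.B (ι s) (ι t)) = j κ * (s * τ t + τ s * t) := by
  have := congrArg j (Φ.add (ι s) (ι t))
  rw [← map_add, map_add j, map_add j, S.π, D.Q, D.Q, D.Q, map_add] at this
  linear_combination -this

theorem QK_symm (D : QK Φ j τ ι κ) :
    QK Φ j τ ((-κ⁻¹) • ι.comp (τ : K →+ K)) κ⁻¹ where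
  ne := inv_ne_zero D.ne
  inv := D.inv
  fix := D.fix
  smul a t := by simp [D.fix, D.smul, smul_smul, mul_comm]
  Q t := by
    have : j κ ≠ 0 := by simpa using D.ne
    simp only [AddMonoidHom.smul_apply, AddMonoidHom.comp_apply, AddMonoidHom.coe_coe, Φ.smul,
      S.σ, map_mul, D.Q, D.inv, map_neg, map_inv₀]
    field_simp

theorem wx_quad (D : QK Φ j τ ι κ) {e f : V} (hef : Φ.B e f = 1) (h1 : ∀ t, Φ.B f (ι t) = 0)
    {x y : K → V ≃ₗ[F] V} (hx : ∀ t, ∃ c, IsE Φ e (ι t) c (x t))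
    (hy : ∀ t, ∃ c, IsE Φ f ((-κ⁻¹) • ι (τ t)) c (y t)) (t u : K) (ht : t ≠ 0) :
    (x t * y (-t⁻¹) * x t) * x u * (x t * y (-t⁻¹) * x t)⁻¹ = y (-(t⁻¹ ^ 2 * u)) := by
  obtain ⟨c, ha⟩ := hx t
  obtain ⟨d, hb⟩ := hy (-t⁻¹)
  obtain ⟨_, hc⟩ := hx u
  obtain ⟨_, hd⟩ := hy (-(t⁻¹ ^ 2 * u))
  have k0 : j κ ≠ 0 := by simpa using D.ne
  have t0 : τ t ≠ 0 := by simpa using ht
  have e1 : j c = j κ * (t * τ t) := by rw [S.c_eq ha, D.Q]
  have c0 : c ≠ 0 := fun h => by simp [h, k0, ht] at e1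
  obtain ⟨n1, n2⟩ := S.n_quad hef (h1 t) ha (hb.congr rfl (by
    rw [← D.smul, ← D.smul]; congr 1
    simp only [map_neg, map_inv₀, e1]; field_simp) rfl) c0
  have a := hc.conj (mul_mem (mul_mem ha.mem_Iso hb.mem_Iso) ha.mem_Iso)
  rw [n1, n2 _ hc.valid.perp (h1 u)] at a
  refine S.uniq (a.of_smul (by simpa using c0)) hd ?_
  rw [S.σ, ← D.smul, ← D.smul, ← map_sub, ← D.smul]; congr 1
  simp only [map_neg, map_inv₀, map_mul, map_pow, e1, S.QK_B D]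
  field_simp
  ring

theorem xadd_quad {e : V} {ι : K →+ V} {x : K → V ≃ₗ[F] V} (hx : ∀ t, ∃ c, IsE Φ e (ι t) c (x t))
    (t u : K) : x t * x u = x (t + u) := by
  obtain ⟨_, ha⟩ := hx t
  obtain ⟨_, hb⟩ := hx u
  obtain ⟨_, hc⟩ := hx (t + u)
  exact S.uniq (ha.mul hb) hc (map_add ι t u).symm

theorem stRel_quad (D : QK Φ j τ ι κ) {e f : V} (hef : Φ.B e f = 1) (h1 : ∀ t, Φ.B f (ι t) = 0)
    {x y : K → V ≃ₗ[F] V} (hx : ∀ t, ∃ c, IsE Φ e (ι t) c (x t))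
    (hy : ∀ t, ∃ c, IsE Φ f ((-κ⁻¹) • ι (τ t)) c (y t)) : StRel x y := by
  refine ⟨S.xadd_quad hx, S.xadd_quad (ι := (-κ⁻¹) • ι.comp (τ : K →+ K)) hy,
    S.wx_quad D hef h1 hx hy, S.wx_quad (S.QK_symm D) ((S.symm _ _).trans hef) (fun t => ?_) hy
      fun t => (hx t).imp fun c h => h.congr rfl ?_ rfl⟩
  · obtain ⟨_, h⟩ := hx (τ t)
    simp [h.valid.perp]
  · simp [D.inv, smul_smul, D.ne]

variable [Finite V] {p : ℕ}

theorem pb_quad [Finite F] [CharP F p] (hp' : p.Prime) [Finite K] (D : QK Φ j τ ι κ)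
    (hY : Φ.ND Y) {e f : V} (he : e ∈ Y) (hf : f ∈ Y) (qe : Φ.Q e = 0) (qf : Φ.Q f = 0)
    (hef : Φ.B e f = 1) (hW : ∀ w, w ∈ hp Φ Y e f ↔ ∃ t, ι t = w) :
    PB p 2 (EGon Φ Y) ∧ ((2 : F) = 0 → PB p 1 (EGon Φ Y)) := by
  have : CharP K p := charP_of_injective_ringHom j.injective p
  have m := fun t => mem_hp.1 ((hW _).2 ⟨t, rfl⟩)
  choose c x hx using fun t => exists_isE qe (m t).2.1
  choose d y hy using fun t => exists_isE (w := (-κ⁻¹) • ι (τ t)) qf (by simp [(m _).2.2])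
  have R := S.stRel_quad D hef (fun t => (m t).2.2) (fun t => ⟨_, hx t⟩) fun t => ⟨_, hy t⟩
  have hne : ∃ s, ∀ t, y s ≠ x t := ⟨1, fun t => ne_of_QE (Y := ⊤) hef
    ((hx t).mem_QE trivial) (hy 1) fun h => by
      have h1 := ((hy 1).eq_of_perp (h ▸ isE_one qf) (hyp_symm hef) (by simp [(m _).2.1])
        (map_zero _)).1
      have h2 := D.Q 1
      simp only [map_one, smul_eq_zero, neg_eq_zero, inv_eq_zero, D.ne, false_or] at h1
      rw [h1, Φ.Q_zero, map_zero, map_one, mul_one, mul_one] at h2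
      exact D.ne (by simpa using h2.symm)⟩
  rw [← closure_eq_EGon hY he hf qe qf hef (fun t => (hx t).mem_QE (m t).1)
    (fun t => (hy t).mem_QE (smul_mem _ _ (m _).1))]
  · exact ⟨pb_of_stRel hp' R hne, fun h => pb_one_of_stRel hp' R hne (Or.inl (by
      rw [← map_ofNat j, h, map_zero]))⟩
  · intro w hw c g hg
    obtain ⟨t, rfl⟩ := (hW w).1 hw
    exact ⟨t, S.uniq (hx t) hg rfl⟩
  · intro w hw c g hg
    obtain ⟨t, rfl⟩ := (hW w).1 hw
    refine ⟨τ (j (-κ) * t), S.uniq (hy _) hg ?_⟩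
    rw [D.inv, D.smul, smul_smul]; simp [D.ne]

theorem pb_aniso [Finite F] [CharP F p] (hp' : p.Prime)
    (hY : Φ.ND Y) {e f : V} (he : e ∈ Y) (hf : f ∈ Y) (qe : Φ.Q e = 0) (qf : Φ.Q f = 0)
    (hef : Φ.B e f = 1) (hW : ∀ w ∈ hp Φ Y e f, Φ.Q w = 0 → w = 0) :
    PB p 2 (EGon Φ Y) ∧ ((2 : F) = 0 → PB p 1 (EGon Φ Y)) := by
  by_cases h0 : hp Φ Y e f = ⊥
  · have : EGon Φ Y = ⊥ := eq_bot_iff.2 (EGon_le_of_QE hY he hf (fun g hg => ?_) (fun g hg => ?_)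
      qe qf (by simp [hef]))
    · exact ⟨(pb_bot hp' this).mono one_le_two, fun _ => pb_bot hp' this⟩
    · obtain ⟨w, hw, c, h⟩ := exists_isE_hp he qe hef hg
      exact S.uniq h (isE_one qe) (by simpa [h0] using hw)
    · obtain ⟨w, hw, c, h⟩ := exists_isE_hp' hf qf hef hg
      exact S.uniq h (isE_one qf) (by simpa [h0] using hw)
  obtain ⟨a, ha, a0⟩ := (Submodule.ne_bot_iff _).1 h0
  have qa : Φ.Q a ≠ 0 := fun h => a0 (hW a ha h)
  by_cases h1 : ∀ w ∈ hp Φ Y e f, w ∈ span F {a}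
  · exact S.pb_quad (j := RingHom.id F) (τ := RingHom.id F) (κ := Φ.Q a)
      (ι := (LinearMap.toSpanSingleton F V a).toAddMonoidHom) hp'
      ⟨qa, fun _ => rfl, fun _ => rfl, fun s t => by simp [mul_smul],
        fun t => by simp [Φ.smul, S.σ, mul_comm]⟩ hY he hf qe qf hef
      fun w => ⟨fun hw => mem_span_singleton.1 (h1 w hw), fun ⟨t, ht⟩ => ht ▸ smul_mem _ t ha⟩
  push Not at h1
  obtain ⟨b, hb, nb⟩ := h1
  have li : LinearIndependent F ![a, b] := LinearIndependent.pair_iff' a0 |>.2 fun t ht =>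
    nb (ht ▸ smul_mem _ _ (mem_span_singleton_self a))
  have hsp : span F {a, b} = hp Φ Y e f := by
    refine Submodule.eq_of_le_of_finrank_le (span_le.2 (Set.pair_subset ha hb)) ?_
    have h2 := finrank_span_eq_card li
    rw [Matrix.range_cons, Matrix.range_cons, Matrix.range_empty, Set.union_empty,
      Set.singleton_union] at h2
    rw [h2]
    by_contra c
    obtain ⟨v, hv, v0, qv⟩ := Φ.iso (hp Φ Y e f) (by rw [S.d]; simp at c; omega)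
    exact v0 (hW v hv qv)
  have hQ : ∀ s t : F, Φ.Q (s • a + t • b) = Φ.Q a * (s ^ 2 + Φ.B a b / Φ.Q a * s * t +
      Φ.Q b / Φ.Q a * t ^ 2) := fun s t => by
    simp only [Φ.add, Φ.smul, Φ.bsimp, S.σ, S.π]; field_simp; ring
  have := Class.Orth.fact_of_aniso (a := Φ.B a b / Φ.Q a) (b := Φ.Q b / Φ.Q a) fun s t h =>
    LinearIndependent.pair_iff.1 li s t (hW _ (add_mem (smul_mem _ _ ha) (smul_mem _ _ hb))
      (by rw [hQ, h, mul_zero]))
  have : Finite (QuadraticAlgebra F (-(Φ.Q b / Φ.Q a)) (Φ.B a b / Φ.Q a)) :=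
    Finite.of_equiv _ (QuadraticAlgebra.equivProd _ _).symm
  refine S.pb_quad (K := QuadraticAlgebra F (-(Φ.Q b / Φ.Q a)) (Φ.B a b / Φ.Q a))
    (j := algebraMap F _) (τ := starRingEnd _) (κ := Φ.Q a)
    (ι := AddMonoidHom.mk' (fun z => z.re • a + z.im • b) fun z w => by
      simp only [QuadraticAlgebra.re_add, QuadraticAlgebra.im_add, add_smul]; abel) hp'
    ⟨qa, star_star, fun s => by ext <;> simp [starRingEnd_apply], fun s t => by simp [mul_smul], fun t => ?_⟩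
    hY he hf qe qf hef fun w => ?_
  · rw [starRingEnd_apply, ← QuadraticAlgebra.algebraMap_norm_eq_mul_star, ← map_mul,
      AddMonoidHom.mk'_apply, hQ, QuadraticAlgebra.norm_def]
    congr 2; ring
  · rw [← hsp, mem_span_pair]
    exact ⟨fun ⟨s, t, h⟩ => ⟨⟨s, t⟩, h⟩, fun ⟨z, h⟩ => ⟨_, _, h⟩⟩

omit [Finite V] in
theorem commute_QE {e : V} {g g' : V ≃ₗ[F] V} (qe : Φ.Q e = 0) (h : g ∈ QE Φ ⊤ e)
    (h' : g' ∈ QE Φ ⊤ e) : Commute g g' := by
  obtain ⟨w, -, c, h⟩ := (mem_QE qe).1 h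
  obtain ⟨w', -, c', h'⟩ := (mem_QE qe).1 h'
  exact h.commute h' (S.symm _ _)

omit [Finite V] in
theorem isE_rx {x x' y y' : V} (H : Hyp2 Φ x x' y y') (t : F) : IsE Φ y' (t • x) 0 (H.rx t) := by
  by_cases ht : t = 0
  · subst ht
    rw [(H.isE 0).congr rfl (by simp) rfl |>.eq_one, zero_smul]
    exact isE_one H.qy'
  exact ((H.isE t).swap.of_smul (by simpa [S.σ] using ht)).congr rfl
    (by simp [S.σ, S.ε]) (by simp)

omit [Finite V] in
theorem w_sq_ne {x x' y y' : V} (H : Hyp2 Φ x x' y y') : (∃ s, ∀ t, H.symm.rx s ≠ H.rx t) ∧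
    ((2 : F) = 0 ∨ StRel.w H.rx H.symm.rx 1 * StRel.w H.rx H.symm.rx 1 ≠ 1) := by
  refine ⟨⟨1, fun t h => ?_⟩, or_iff_not_imp_left.2 fun h2 h => h2 ?_⟩
  · have := congrArg (fun g : V ≃ₗ[F] V => Φ.B y' (g x)) h
    simp [H.rx_x, H.symm.rx_y, H.simp, S.ε] at this
  · have := congrArg (fun g : V ≃ₗ[F] V => Φ.B x' (g x)) h
    simp only [mul_app, H.w_x one_ne_zero, map_smul, H.w_y one_ne_zero, one_app, H.simp, S.ε,
      smul_eq_mul] at this
    linear_combination -this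

theorem pb_iso [Finite F] [CharP F p] (hp' : p.Prime)
    (hY : Φ.ND Y) {e f a : V} (he : e ∈ Y) (hf : f ∈ Y) (qe : Φ.Q e = 0) (qf : Φ.Q f = 0)
    (hef : Φ.B e f = 1) (ha : a ∈ hp Φ Y e f) (a0 : a ≠ 0) (qa : Φ.Q a = 0)
    (h4 : finrank F Y ≤ 4) : PB p 2 (EGon Φ Y) ∧ ((2 : F) = 0 → PB p 1 (EGon Φ Y)) := by
  have hW : Φ.ND (hp Φ Y e f) := hY.inf_hyp he hf qe qf hef
  obtain ⟨b, hb, qb, hab⟩ := exists_partner ha qa (hW.exists_ne ha a0)
  have d1 := finrank_hp_add_two he hf qe hef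
  have d2 := finrank_hp_add_two ha hb qa hab
  have h0 : hp Φ (hp Φ Y e f) a b = ⊥ := Submodule.finrank_eq_zero.1 (by omega)
  have hs : ∀ w ∈ hp Φ Y e f, w = Φ.B a w • b + Φ.B b w • a := fun w hw => by
    have := proj_mem_hp ha hb qa qb hab hw
    rw [h0, mem_bot, S.ε, one_mul] at this
    linear_combination (norm := module) this
  obtain ⟨a1, a2, a3⟩ := mem_hp.1 ha
  obtain ⟨b1, b2, b3⟩ := mem_hp.1 hb
  have H : Hyp2 Φ e f a b := ⟨qe, qf, qa, qb, hef, hab, a2, b2, a3, b3⟩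
  have H' : Hyp2 Φ e f b a := ⟨qe, qf, qb, qa, hef, (S.symm _ _).trans hab, b2, a2, b3, a3⟩
  refine pb_of_stRel₂ hp' H.stRel H'.stRel (fun t u => ⟨?_, ?_, ?_, ?_⟩) (S.w_sq_ne H).1
    (S.w_sq_ne H').1 (S.w_sq_ne H).2 (S.w_sq_ne H').2 (le_antisymm
      (EGon_le_of_QE hY he hf (fun g hg => ?_) (fun g hg => ?_) qe qf (by simp [hef]))
      (sup_le ((Subgroup.closure_le _).2 ?_) ((Subgroup.closure_le _).2 ?_)))
  · exact S.commute_QE qe ((H.isE t).mem_QE trivial) ((H'.isE u).mem_QE trivial)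
  · exact S.commute_QE qb ((S.isE_rx H t).mem_QE trivial) ((H'.symm.isE u).mem_QE trivial)
  · exact S.commute_QE qa ((H.symm.isE t).mem_QE trivial) ((S.isE_rx H' u).mem_QE trivial)
  · exact S.commute_QE qf ((S.isE_rx H.symm t).mem_QE trivial)
      ((S.isE_rx H'.symm u).mem_QE trivial)
  · obtain ⟨w, hw, c, h⟩ := exists_isE_hp he qe hef hg
    rw [S.uniq h ((H.isE (-Φ.B a w)).mul (H'.isE (-Φ.B b w))) (by simpa [S.σ] using hs w hw)]
    exact Subgroup.mul_mem_sup (Subgroup.subset_closure (Or.inl ⟨_, rfl⟩))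
      (Subgroup.subset_closure (Or.inl ⟨_, rfl⟩))
  · obtain ⟨w, hw, c, h⟩ := exists_isE_hp' hf qf hef hg
    rw [S.uniq h ((S.isE_rx H.symm (Φ.B b w)).mul (S.isE_rx H'.symm (Φ.B a w)))
      ((hs w hw).trans (add_comm _ _))]
    exact Subgroup.mul_mem_sup (Subgroup.subset_closure (Or.inr ⟨_, rfl⟩))
      (Subgroup.subset_closure (Or.inr ⟨_, rfl⟩))
  · rintro _ (⟨t, rfl⟩ | ⟨t, rfl⟩)
    exacts [H.rx_mem_EGon he b1 t, H.symm.rx_mem_EGon a1 hf t]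
  · rintro _ (⟨t, rfl⟩ | ⟨t, rfl⟩)
    exacts [H'.rx_mem_EGon he a1 t, H'.symm.rx_mem_EGon b1 hf t]

end IsO

end

theorem IsO.pb {F : Type u} {V : Type v} [Field F] [AddCommGroup V] [Module F V]
    {Φ : Fm F V} [Finite F] [Finite V] (S : IsO Φ) {p : ℕ} [CharP F p] :
    PB p 2 Φ.EG ∧ ((2 : F) = 0 → PB p 1 Φ.EG) := by
  have hp' := CharP.char_is_prime F p
  have key : ∀ Y : Submodule F V, Φ.ND Y → ∀ e ∈ Y, ∀ f ∈ Y, Φ.Q e = 0 → Φ.Q f = 0 → Φ.B e f = 1 →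
      (((∃ c, c ≠ 0 ∧ Φ.π c = 0) ∨ 5 ≤ finrank F Y) ∧ Φ.d + 2 ≤ finrank F Y) ∨
        (PB p 2 (EGon Φ Y) ∧ ((2 : F) = 0 → PB p 1 (EGon Φ Y))) := by
    intro Y hY e he f hf qe qf hef
    by_cases h5 : 5 ≤ finrank F Y
    · exact Or.inl ⟨Or.inr h5, by rwa [S.d]⟩
    by_cases h : ∀ w ∈ hp Φ Y e f, Φ.Q w = 0 → w = 0
    · exact Or.inr (S.pb_aniso hp' hY he hf qe qf hef h)
    push Not at h
    obtain ⟨a, ha, qa, a0⟩ := h
    exact Or.inr (S.pb_iso hp' hY he hf qe qf hef ha a0 qa (by omega))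
  rw [← EGon_top]
  exact ⟨pb_all hp' one_le_two (fun Y hY e he f hf qe qf hef =>
    (key Y hY e he f hf qe qf hef).imp_right And.left) _ ⊤ rfl Φ.nd_top,
    fun h2 => pb_all hp' le_rfl (fun Y hY e he f hf qe qf hef =>
    (key Y hY e he f hf qe qf hef).imp_right fun h => h.2 h2) _ ⊤ rfl Φ.nd_top⟩

end Cfsg.Agent.Mult
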