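import Mathlib
import Cfsg.Agent.Comp.KronGL
import Cfsg.Agent.Mult.F42Data
import Cfsg.Agent.Chev.StLoc
import Cfsg.Prelude.Def_ChevF4

/-! The Boolean checks for the double cover of `F₄(2)`. -/

set_option autoImplicit false
set_option maxRecDepth 100000

namespace Cfsg.Agent.Mult.F42

open Cfsg.Agent.Comp.Dig Cfsg.Agent.Comp.SS Cfsg.Agent.Comp.Kron Cfsg.Lie

/-- mask for the reduction -/
noncomputable def QM : ℕ := rep 20 (52 * 52) (2 ^ (20 - 12) - 1)
/-- mask for the product -/
noncomputable def MASK : ℕ := mask 20 52 52 (2 ^ 20 - 1)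
/-- folding modulus -/
noncomputable def MOD : ℕ := modu 20 52 52
/-- the operation -/
noncomputable def op : ℕ → ℕ → ℕ := opP 5 820 12 QM MASK MOD
/-- scalar matrices -/
noncomputable def sc (c : ℕ) : ℕ := sumR 52 fun i => Nat.shiftLeft c (Nat.mul 1060 i)
/-- the identity -/
noncomputable def o : ℕ := sc 1
/-- the states of the letters -/
noncomputable def l : List ℕ :=
  (raws.map fun c => sumR 2704 fun q => Nat.shiftLeft (dig 3 c q) (Nat.mul 20 q)) ++ [sc 4]
/-- the operators of the letters -/
noncomputable def Ds : List ℕ := l.map (hatE op 0 20 52 52 1)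
/-- the state of a word in the root elements -/
noncomputable def ev (w : List ℕ) : ℕ :=
  List.rec (motive := fun _ => ℕ) o (fun r _ s => force (dig 4 TAB r) fun e => lab op Ds e s) w

/-- the roots that occur in the commutator formula modulo two -/
def tl (r s : ℕ) : List ℕ := ((chevF4.commTerms r s).filter fun c => c.2.1 % 2 = 1).map (·.1)

/-- the commutator formula holds up to sign -/
noncomputable def chk (r s : ℕ) : Bool :=
  force (ev [s, r]) fun a => force (ev (r :: s :: tl r s)) fun b =>
    Nat.beq a b || Nat.beq a (lab op Ds 16 b)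

/-- the word that gives the central element -/
def wz : List ℕ := [34, 14, 34, 14, 22, 28, 22, 28, 30, 20, 30, 20, 26, 23, 26, 23, 25, 27, 25, 27]

theorem c_par : parB 20 52 5 820 12 = true := by decide +kernel
theorem c_o : matB 20 52 1 52 5 oneCode o = true := by decide +kernel
theorem c_z : matB 20 52 1 52 5 (fun j i _ => if j = i then 4 else 0) (pick l 16) = true := by
  decide +kernel

/-- the roots of the standard subsystem of rank two -/
def sub (i j : ℕ) : List ℕ := (List.range 48).filter fun r => chevF4.InRankTwoSub i j r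

theorem c_all : (allR (fun e => force e fun e => band (validB 20 52 52 5 (pick l e))
      (Nat.beq (lab op Ds e (pick l e)) o)) 17 = true ∧ Nat.beq (ev wz) (pick l 16) = true) ∧
    ∀ i < 4, ∀ j < i, ∀ r ∈ sub i j, ∀ s ∈ sub i j,
      s = r ∨ s = chevF4.neg r ∨ chk r s = true := by
  decide +kernel

end Cfsg.Agent.Mult.F42
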