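import Mathlib
import Cfsg.Agent.Mult.F42Chk

/-! Combinatorics of the root system of type `F₄` modulo two. -/

set_option autoImplicit false

namespace Cfsg.Agent.Mult.F42

open Cfsg.Lie Cfsg.Agent.Chev
open scoped commutatorElement

/-- The commutator of `X_a` and `X_b` is `X_k`. -/
def S (a b k : ℕ) : Prop := b ≠ a ∧ b ≠ chevF4.neg a ∧
  (chevF4.commTerms a b = [(k, 1, 1, 1)] ∨ chevF4.commTerms a b = [(k, -1, 1, 1)])

instance instDecS (a b k : ℕ) : Decidable (S a b k) := by unfold S; infer_instance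

/-- First summand of a root. -/
def da (k : ℕ) : ℕ :=
  0x61756140f3ce34c2ca2481c51042892020810010071c70400030c30c30c30c10001c0001 >>> (6 * k) % 64 % 48

/-- Second summand of a root. -/
def db (k : ℕ) : ℕ :=
  0xbafbe8befbacb2cb2cb2cb2fbeea28a2fbafbadb679a5aebaa89e69648e286081f39a617 >>> (6 * k) % 64 % 48

/-- Two decompositions are related by the Jacobi identity. -/
def J (a b a' b' k : ℕ) : Prop := ∃ u < 48, S u a' a ∧ S b u b' ∧ 0 ≤ chevF4.pairing a' b ∧
  0 ≤ chevF4.pairing a b' ∧ 0 ≤ chevF4.pairing b' k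

instance instDecJ (a b a' b' k : ℕ) : Decidable (J a b a' b' k) := by unfold J; infer_instance

/-- A short and a long root at an obtuse angle. -/
def B (r s : ℕ) : Prop := tl s r = tl r s ∧
  (∀ k ∈ tl r s, k < 48 ∧ 0 ≤ chevF4.pairing k s ∧ ∀ k' ∈ tl r s, 0 ≤ chevF4.pairing k k') ∧
  ∀ i < 4, tl (chevF4.reflectRoot i r) (chevF4.reflectRoot i s) = (tl r s).map (chevF4.reflectRoot i)

instance instDecB (r s : ℕ) : Decidable (B r s) := by unfold B; infer_instance

/-- Comparison with the chosen decomposition. -/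
def E (r s k : ℕ) : Prop := k < 48 ∧ 0 ≤ chevF4.pairing k r ∧ 0 ≤ chevF4.pairing k s ∧
  (r = da k ∧ s = db k ∨ s = da k ∧ r = db k ∨ J (db k) (da k) r s k ∨ J (db k) (da k) s r k)

instance instDecE (r s k : ℕ) : Decidable (E r s k) := by unfold E; infer_instance

theorem c_dec : ∀ k < 48, S (da k) (db k) k ∧ ∀ i < 4, S (chevF4.reflectRoot i (da k))
    (chevF4.reflectRoot i (db k)) (chevF4.reflectRoot i k) := by decide +kernel

theorem c_one : ∀ r < 48, ∀ s < 48, ∀ k ∈ tl r s, S r s k → E r s k := by decide +kernel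

theorem c_pair : ∀ r < 48, ∀ s < 48, s = r ∨ s = chevF4.neg r ∨
    (0 ≤ chevF4.pairing r s ∧ tl r s = []) ∨ chevF4.pairing r s = -2 ∨ chevF4.pairing s r = -2 ∨
    ∃ k ∈ tl r s, tl r s = [k] ∧ S r s k := by
  decide +kernel

theorem S.e {r s k : ℕ} (h : S r s k) (hr : r < 48) (hs : s < 48) : E r s k :=
  c_one r hr s hs k (by rcases h.2.2 with h | h <;> simp [tl, h]) h

theorem c_two : ∀ r < 48, ∀ s < 48, chevF4.pairing r s = -2 → s = chevF4.neg r ∨ B r s := by
  decide +kernel

end Cfsg.Agent.Mult.F42
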