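import Mathlib
import Cfsg.Agent.Mult.F42Chk
import Cfsg.Agent.Mult.ChevMain
import Cfsg.Agent.Chev.StCT
import Cfsg.Agent.Chev.StChev
import Cfsg.Agent.Mult.Finish

/-! The double cover of `F₄(2)`. -/

set_option autoImplicit false

namespace Cfsg.Agent.Mult.F42

open Cfsg.Agent.Comp.Dig Cfsg.Agent.Comp.SS Cfsg.Agent.Comp.Kron Cfsg.Lie Cfsg.Agent.Chev
open scoped commutatorElement

/-- The ambient group. -/
abbrev G52 : Type := GL (Fin 52) (ZMod 5)

/-- enumeration of the index set -/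
abbrev ix (i : ℕ) : Fin 52 := Fin.ofNat 52 i

theorem ctx : Ctx ix (1 : ZMod 5) 20 52 1 52 5 op 0 where
  enum := isEnum_fin 52
  hd := rfl
  f_pos := by norm_num
  m_pos := by norm_num
  p_pos := by norm_num
  indep := indep_prime 1
  spec := opSpec_red (nsmul_bvE rfl _ _ _) (by norm_num) (by norm_num) c_par rfl rfl rfl
  hW := Or.inl rfl

/-- the representation predicate -/
abbrev Rz : ℕ → G52 → Prop := RepE ix (1 : ZMod 5) 20 52 52 5

theorem mdl : IsMdl Rz Rz o Nat.beq op (hatE op 0 20 52 52 1) := ctx.isMdl (ctx.repE_one c_o)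

theorem l_ne : l ≠ [] := by simp [l]

theorem exists_g (e : ℕ) : ∃ g, e < 17 → Rz (pick l e) g ∧ g * g = 1 := by
  by_cases he : e < 17
  swap
  · exact ⟨1, fun h => absurd h he⟩
  have h0 := (allR_iff _ _).1 c_all.1.1 e he
  rw [force_eq] at h0
  obtain ⟨h1, h2⟩ := band_iff.1 h0
  have h3 := valid_of_validB (by norm_num) h1
  obtain ⟨g, hg⟩ := ctx.exists_repE mdl.one h3 h3 (by
    rw [← pick_map l_ne (hatE op 0 20 52 52 1)]; exact Nat.eq_of_beq_eq_true h2)
  exact ⟨g, fun _ => ⟨hg, mdl.sound _ _ _ _ (mdl.isOp_lab rfl l_ne hg _ _ hg) mdl.one h2⟩⟩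

/-- the letters -/
noncomputable def g (e : ℕ) : G52 := (exists_g e).choose

/-- the root elements -/
noncomputable def Y (r : ℕ) : G52 := g (Comp.Dig.dig 4 TAB r)

theorem Y_spec (r : ℕ) : Rz (pick l (Comp.Dig.dig 4 TAB r)) (Y r) ∧ Y r * Y r = 1 :=
  (exists_g _).choose_spec ((dig_lt _ _ _).trans (by norm_num))

theorem rz_ev (w : List ℕ) : Rz (ev w) (w.map Y).prod := by
  induction w with
  | nil => exact mdl.one
  | cons r w ih => exact mdl.isOp_lab rfl l_ne (Y_spec r).1 _ _ ih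

theorem rz_z : Rz (pick l 16) (g 16) := ((exists_g 16).choose_spec (by norm_num)).1

theorem z_eq : g 16 = Matrix.GeneralLinearGroup.scalar _ (-1) :=
  Units.ext (ctx.coe_eq_of_matB c_z rz_z fun i hi j hj => by
    have : ix j = ix i ↔ j = i := ⟨ctx.enum.inj _ hj _ hi, fun h => h ▸ rfl⟩
    rw [Matrix.GeneralLinearGroup.coe_scalar, Matrix.scalar_apply, Matrix.diagonal_apply,
      if_congr this rfl rfl]
    by_cases h : j = i <;> simp [val, h]; rfl)

theorem z_comm {n : G52} (h : n ∈ Subgroup.zpowers (g 16)) (a : G52) : n * a = a * n :=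
  ((Subgroup.zpowers_le (H := Subgroup.center _)).2
    (Subgroup.mem_center_iff.2 fun a => by rw [z_eq, scalar_comm]) h).comm a

theorem z_ne : g 16 ≠ 1 := fun h => by
  have := congrArg (fun a : G52 => a.1 0 0) (z_eq.symm.trans h)
  simp at this
  exact absurd this (by decide)

instance instNormal : (Subgroup.zpowers (g 16)).Normal :=
  ⟨fun n hn a => by rwa [← z_comm hn, mul_inv_cancel_right]⟩

/-- The quotient by the sign. -/
abbrev Q : Type := G52 ⧸ Subgroup.zpowers (g 16)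

theorem mk_z : (g 16 : Q) = 1 := (QuotientGroup.eq_one_iff _).2 (Subgroup.mem_zpowers _)

variable {F : Type*} [Field F]

open Classical in
/-- A family of root elements over the field with two elements. -/
noncomputable def fam {H : Type*} [Group H] (Z : ℕ → H) (r : ℕ) (t : F) : H :=
  if t = 0 then 1 else Z r

theorem isStOn_fam (h2 : (2 : F) = 0) (hF : ∀ t : F, t = 0 ∨ t = 1) {H : Type*} [Group H]
    {Z : ℕ → H} {Φ : Set ℕ} (h1 : ∀ r ∈ Φ, r < chevF4.nroots) (h3 : ∀ r ∈ Φ, Z r * Z r = 1)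
    (h4 : ∀ r ∈ Φ, ∀ s ∈ Φ, s ≠ r → s ≠ chevF4.neg r →
      Z s * Z r = Z r * Z s * ((tl r s).map Z).prod) : IsStOn chevF4 (fam (F := F) Z) Φ := by
  refine ⟨h1, fun r hr t u => ?_, fun r hr s hs e1 e2 t u => ?_⟩
  · rcases hF t with rfl | rfl <;> rcases hF u with rfl | rfl <;>
      simp [fam, one_add_one_eq_two.trans h2, h3 r hr]
  have h0 : t = 0 ∨ u = 0 → word (fam Z) (chevF4.commWord F r s t u) = 1 := fun h =>
    Subgroup.mem_bot.1 (word_mem fun p hp => by
      obtain ⟨c, hc, rfl⟩ := List.mem_map.1 hp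
      obtain ⟨-, -, a, b, -⟩ := mem_commTerms (D := chevF4) (r := ⟨r, h1 r hr⟩) (s := ⟨s, h1 s hs⟩) hc
      rcases h with rfl | rfl <;> simp [fam, a.ne', b.ne'])
  rcases hF t with rfl | rfl
  · simp [h0, fam]
  rcases hF u with rfl | rfl
  · simp [h0, fam]
  have h5 : ∀ L : List (ℕ × ℤ × ℕ × ℕ), word (fam Z) (L.map fun c =>
      (c.1, (c.2.1 : F) * (-1) ^ c.2.2.1 * 1 ^ c.2.2.2)) =
      (((L.filter fun c => c.2.1 % 2 = 1).map (·.1)).map Z).prod := fun L => by
    induction L with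
    | nil => rfl
    | cons c L ih =>
      rw [List.map_cons, word_cons, ih, List.filter_cons]
      obtain ⟨k, h | h⟩ := c.2.1.even_or_odd'
      · simp [fam, h, h2]
      · simp [fam, h, h2, Int.add_emod]
  rw [ChevalleyDatum.commWord, h5]
  simpa only [fam, one_ne_zero, if_false, tl] using h4 r hr s hs e1 e2

theorem isStOn (h2 : (2 : F) = 0) (hF : ∀ t : F, t = 0 ∨ t = 1) (i j : Fin chevF4.rank) :
    IsStOn chevF4 (fam (F := F) fun r => (Y r : Q)) (Phi chevF4 i j) := by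
  have key : ∀ i j : Fin chevF4.rank, (j : ℕ) < i →
      IsStOn chevF4 (fam (F := F) fun r => (Y r : Q)) (Phi chevF4 i j) := by
    refine fun i j hij => isStOn_fam h2 hF (fun r hr => hr.1) (fun r _ => by
      rw [← QuotientGroup.mk_mul, (Y_spec r).2]; rfl) fun r hr s hs e1 e2 => ?_
    have hm : ∀ r ∈ Phi chevF4 i j, r ∈ sub i j := fun r hr =>
      List.mem_filter.2 ⟨List.mem_range.2 hr.1, decide_eq_true (mem_Phi_iff.1 hr)⟩
    have h4 := ((c_all.2 i i.2 j hij r (hm r hr) s (hm s hs)).resolve_left e1).resolve_left e2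
    have e : ((tl r s).map fun r => (Y r : Q)).prod = (((tl r s).map Y).prod : G52) := by
      rw [← QuotientGroup.mk'_apply, map_list_prod, List.map_map]; rfl
    rcases Bool.or_eq_true_iff.1 h4 with h | h
    · simpa [mul_assoc, e] using congrArg (fun a : G52 => (a : Q))
        (mdl.sound _ _ _ _ (rz_ev _) (rz_ev _) h)
    · simpa [mul_assoc, e, mk_z] using congrArg (fun a : G52 => (a : Q))
        (mdl.sound _ _ _ _ (rz_ev _) (mdl.isOp_lab rfl l_ne rz_z _ _ (rz_ev _)) h)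
  rcases lt_trichotomy (j : ℕ) i with h | h | h
  · exact key i j h
  · obtain rfl : j = i := Fin.ext h
    have hs : ∀ k, Phi chevF4 j j ⊆ Phi chevF4 j k := fun k r hr =>
      ⟨hr.1, fun m hm h => hr.2 m hm fun e => h (Or.inl (by simpa using e))⟩
    rcases Nat.eq_zero_or_pos j with h | h
    · exact (key ⟨1, by decide⟩ j (h ▸ one_pos)).mono ((hs _).trans (Phi_comm _ _).le)
    · exact (key j ⟨0, by decide⟩ h).mono (hs _)
  · exact Phi_comm i j ▸ key j i h

theorem exists_hom [Finite F] (hF : Nat.card F = 2) : ∃ φ : chevF4.group F →* Q,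
    haveI := goodF4
    ∀ i j, ∀ r ∈ Phi chevF4 i j, φ (xC chevF4 F r 1) = (Y r : Q) := by
  have := goodF4
  have hD : chevF4 ∈ [chevG2, chevB2, chevD4, chevF4, chevE6, chevE7, chevE8] := by simp
  obtain ⟨T⟩ := exists_rootTable hD
  obtain ⟨z, hz, e⟩ := curtis_tits hD (isStOn (two_facts hF).1 (two_facts hF).2)
  obtain ⟨ψ, hψ⟩ := hz.exists_lift3 (isR3_of_finite hD hz) T
  obtain ⟨θ, hθ⟩ := (isSt_xC (D := chevF4) (F := F)).toIsSt0.exists_lift3 isR3_xC T
  have hs := surjective_of_hom θ hθ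
  have hk : θ.ker ≤ ψ.ker := by
    rw [(isSt0_stGen.isSt hD).ker_eq_center T θ hθ Gs_stGen,
      isR3_stGen.center_eq T θ hθ (isSt0_stGen.isSt hD) Gs_stGen]
    rintro _ ⟨c, -, rfl⟩
    rw [show c = 1 from funext fun i => Units.ext
      (((two_facts hF).2 _).resolve_left (c i).ne_zero), map_one]
    exact one_mem _
  refine ⟨θ.liftOfRightInverse _ (Function.rightInverse_surjInv hs) ⟨ψ, hk⟩, fun i j r hr => ?_⟩
  refine ((congrArg _ (hθ r hr.1 1).symm).trans (θ.liftOfRightInverse_comp_apply _ _ _ _)).trans ?_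
  rw [hψ r hr.1, e i j r hr, fam, if_neg one_ne_zero]

theorem one_lt_mcard [Finite F] (hF : Nat.card F = 2) : 1 < mcard (chevF4.group F) := by
  have := goodF4
  obtain ⟨φ, hφ⟩ := exists_hom hF
  let Γ : Subgroup (chevF4.group F × G52) :=
    (φ.comp (MonoidHom.fst _ _)).eqLocus ((QuotientGroup.mk' _).comp (MonoidHom.snd _ _))
  let σ : Γ →* chevF4.group F := (MonoidHom.fst _ _).comp Γ.subtype
  have hs : Function.Surjective σ := fun a => by
    obtain ⟨k, hk⟩ := QuotientGroup.mk_surjective (φ a)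
    exact ⟨⟨(a, k), hk.symm⟩, rfl⟩
  have hc : σ.ker ≤ Subgroup.center Γ := by
    rintro ⟨⟨a, k⟩, hak⟩ ha
    obtain rfl : a = 1 := ha
    exact Subgroup.mem_center_iff.2 fun b => Subtype.ext (Prod.ext (by simp) (z_comm
      ((QuotientGroup.eq_one_iff k).1 ((show φ 1 = k from hak).symm.trans (map_one φ))) _).symm)
  have hA : ∀ r, ∃ a : Γ, a.1.2 = Y r ∨ r ∉ wz := fun r => by
    by_cases hr : r ∈ wz
    · obtain ⟨i, j, h⟩ : ∃ i j : Fin chevF4.rank, chevF4.InRankTwoSub i j r := by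
        revert r; decide
      exact ⟨⟨(_, Y r), hφ i j r (mem_Phi_iff.2 h)⟩, Or.inl rfl⟩
    · exact ⟨1, Or.inr hr⟩
  choose A hA using hA
  replace hA : ∀ r ∈ wz, (A r).1.2 = Y r := fun r hr => (hA r).resolve_right (not_not.2 hr)
  have hz : (wz.map Y).prod = g 16 := mdl.sound _ _ _ _ (rz_ev _) rz_z c_all.1.2
  have hi : ∀ r, (Y r)⁻¹ = Y r := fun r => inv_eq_of_mul_eq_one_right (Y_spec r).2
  let P := ⁅A 34, A 14⁆ * ⁅A 22, A 28⁆ * ⁅A 30, A 20⁆ * ⁅A 26, A 23⁆ * ⁅A 25, A 27⁆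
  have hP : P.1.2 = g 16 := by
    simp only [wz, List.forall_mem_cons] at hA
    simp [P, commutatorElement_def, hA, wz, hi, ← hz, mul_assoc]
  have hi : φ.ker = ⊥ := by
    have := (isSimpleGroup_group (D := chevF4) (F := F) (by simp) (by
      rintro (h | h) <;> exact absurd (congrArg ChevalleyDatum.rank h) (by decide))).1
    refine (IsSimpleGroup.eq_bot_or_eq_top_of_normal _ inferInstance).resolve_right fun h => z_ne ?_
    have h1 : ∀ a b : Γ, (⁅a, b⁆ : Γ).1.2 = 1 := fun a b =>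
      (commutatorElement_eq_one_iff_mul_comm (g₁ := a.1.2) (g₂ := b.1.2)).2 (z_comm
        ((QuotientGroup.eq_one_iff a.1.2).1 ((show φ a.1.1 = a.1.2 from a.2).symm.trans
          (h ▸ Subgroup.mem_top _ : a.1.1 ∈ φ.ker))) _)
    simp [← hP, P, h1]
  have h1 : P ∈ σ.ker ⊓ commutator Γ := ⟨hi.le ((show φ P.1.1 = P.1.2 from P.2).trans (by
    rw [hP, mk_z])), by
    refine mul_mem (mul_mem (mul_mem (mul_mem ?_ ?_) ?_) ?_) ?_ <;>
      exact Subgroup.commutator_mem_commutator (Subgroup.mem_top _) (Subgroup.mem_top _)⟩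
  refine lt_of_le_of_ne mcard_pos fun h => z_ne ?_
  have h2 := card_ker_inf_commutator_dvd hs hc
  rw [← h, Nat.dvd_one, Subgroup.card_eq_one] at h2
  rw [← hP, Subgroup.mem_bot.1 (h2.le h1)]; rfl

end Cfsg.Agent.Mult.F42
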