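import Mathlib
import Cfsg.Agent.Mult.F42Low
import Cfsg.Agent.Mult.F42Comb

/-! The Schur multiplier of `F₄(2)` has order at most two. -/

set_option autoImplicit false

namespace Cfsg.Agent.Mult.F42

open Cfsg.Lie Cfsg.Agent.Chev Cfsg.Agent.FGS
open scoped commutatorElement

attribute [local instance] goodF4

variable {F : Type*} [Field F] {Γ : Type*} [Group Γ] {σ : Γ →* chevF4.group F}
  (hs : Function.Surjective σ) (hc : σ.ker ≤ Subgroup.center Γ) (h2 : ((2 : ℕ) : F) = 0)
  (hF : ∀ t : F, ∃ n : ℕ, t = n)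
include hs hc h2 hF

theorem cp (r s : Rt chevF4) (e : 0 ≤ A r s) : CP σ (xC chevF4 F) r s := by
  obtain ⟨T⟩ := exists_rootTable (D := chevF4) (by simp)
  have h := adj_xC (F := F) T
  have k1 := h.CP_of_dom hs (E := fun r s => A r s < 0 ∨ A r s = 0 ∧ ln r = ln s)
    (fun i r s e => by simpa using e) fun r s hrs => by
      rcases (by decide +kernel : ∀ e ∈ goodF4.dom, (chevF4.pairing e.1 e.2 < 0 ∨
        chevF4.pairing e.1 e.2 = 0 ∧ goodF4.len e.1 = goodF4.len e.2) ∨ e.2 = e.1 ∨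
        ∃ d ∈ [(25, 31, 0), (27, 39, 0), (24, 46, 0), (27, 35, 0), (33, 40, 0), (25, 45, 0)],
          MilN chevF4 2 (fun _ _ => false) e.1 e.2 d) _ hrs with e | e | ⟨d, -, e⟩
      · exact Or.inl e
      · obtain rfl : s = r := Fin.ext e
        exact Or.inr (h.CP_self_of_prime hs hc hF s)
      · exact Or.inr (h.CP_of_MilN hs hc h2 (fun _ _ e => by simp at e) e)
  refine (h.CP_of_dom hs (E := fun r s => A r s < 0) (fun i r s e => by simpa using e)
    (fun r s hrs => ?_) r s).resolve_left (by omega)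
  rcases k1 r s with (e | e) | e
  · exact Or.inl e
  · rcases (by decide +kernel : ∀ e ∈ goodF4.dom, chevF4.pairing e.1 e.2 = 0 →
      goodF4.len e.1 = goodF4.len e.2 → e = (44, 29) ∨ e = (47, 41)) _ hrs e.1 e.2 with e | e
    · obtain rfl : r = ⟨44, by decide⟩ := Fin.ext (congrArg Prod.fst e)
      obtain rfl : s = ⟨29, by decide⟩ := Fin.ext (congrArg Prod.snd e)
      exact Or.inr (h.CP_of_milnor hs hc (a := ⟨19, by decide⟩) (b := ⟨32, by decide⟩) (by decide)
        (by decide) (h.com_of_ComN h2 (by decide)) (h.com_of_ComN h2 (by decide)) (l₁ := [])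
        (l₂ := [(24, -1, 2, 1)]) (C := 1) (i := 1) (j := 1) (by decide) (by simp) (by simp)
        (by simpa using (k1 ⟨44, by decide⟩ ⟨24, by decide⟩).resolve_left (by decide)))
    · obtain rfl : r = ⟨47, by decide⟩ := Fin.ext (congrArg Prod.fst e)
      obtain rfl : s = ⟨41, by decide⟩ := Fin.ext (congrArg Prod.snd e)
      exact Or.inr (h.CP_of_milnor hs hc (a := ⟨17, by decide⟩) (b := ⟨37, by decide⟩) (by decide)
        (by decide) (h.com_of_ComN h2 (by decide)) (h.com_of_ComN h2 (by decide))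
        (l₁ := [(33, 1, 1, 1)]) (l₂ := []) (C := 1) (i := 1) (j := 2) (by decide) (by simp) (by simp)
        (by simpa using (k1 ⟨47, by decide⟩ ⟨33, by decide⟩).resolve_left (by decide)))
  · exact Or.inr e

theorem exists_y : ∃ y : ℕ → Γ, (∀ k < 48, σ (y k) = xC chevF4 F k 1 ∧ y k * y k = 1) ∧
    (∀ r < 48, ∀ s < 48, ∀ k, S r s k → ⁅y s, y r⁆ = y k) ∧
    ∀ i < 4, ∃ n, ∀ k < 48, n * y k * n⁻¹ = y (chevF4.reflectRoot i k) := by
  obtain ⟨T⟩ := exists_rootTable (D := chevF4) (by simp)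
  have h := adj_xC (F := F) T
  have neg1 : (-1 : F) = 1 := by push_cast at h2; linear_combination -h2
  have cp' : ∀ {r s : ℕ} {a b : Γ}, r < 48 → s < 48 → 0 ≤ chevF4.pairing r s →
      σ a = xC chevF4 F r 1 → σ b = xC chevF4 F s 1 → Commute a b := fun hr hs' e ha hb =>
    cp hs hc h2 hF ⟨_, hr⟩ ⟨_, hs'⟩ e _ (h.mem_Xt.2 ⟨_, ha⟩) _ (h.mem_Xt.2 ⟨_, hb⟩)
  choose l hl using hs
  let L : ℕ → Γ := fun r => l (xC chevF4 F r 1)
  have hL : ∀ r, σ (L r) = xC chevF4 F r 1 := fun r => hl _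
  have hS : ∀ {a b k}, a < 48 → b < 48 → S a b k → σ ⁅L b, L a⁆ = xC chevF4 F k 1 := by
    intro a b k ha hb e
    rw [map_commutatorElement, hL, hL]
    rcases e.2.2 with e' | e' <;> simpa [neg1] using h.commutator_eq_of_single (a := ⟨b, hb⟩)
      (b := ⟨a, ha⟩) (fun e' => e.1 (congrArg Fin.val e')) (fun e' => e.2.1 (congrArg Fin.val e')) e'
  have ha : ∀ k, da k < 48 := fun k => Nat.mod_lt _ (by norm_num)
  have hb : ∀ k, db k < 48 := fun k => Nat.mod_lt _ (by norm_num)
  let y : ℕ → Γ := fun k => ⁅L (db k), L (da k)⁆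
  have hy : ∀ k < 48, σ (y k) = xC chevF4 F k 1 := fun k hk => hS (ha k) (hb k) (c_dec k hk).1
  have hy2 : ∀ k < 48, y k * y k = 1 := fun k hk => by
    have e := (c_dec k hk).1.e (ha k) (hb k)
    have := commutator_pow_pow (cp' hk (hb k) e.2.2.1 (hy k hk) (hL _))
      (cp' hk (ha k) e.2.1 (hy k hk) (hL _)) 2 1
    rw [← sq, ← this, commutatorElement_eq_one_iff_commute]
    refine commute_of_mem_ker hc ?_ _
    rw [MonoidHom.mem_ker, map_pow, hL, h.x_pow ⟨_, hb k⟩, h2, zero_mul, h.x_zero ⟨_, hb k⟩]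
  have jac : ∀ {a b k}, a < 48 → b < 48 → k < 48 → J (db k) (da k) a b k → ⁅L a, L b⁆ = y k := by
    rintro a b k h1 h3 hk ⟨u, hu, s1, s2, p1, p2, p3⟩
    have q1 := hS hu h1 s1
    have q2 := hS (ha k) hu s2
    rw [commutator_congr hc rfl ((hL _).trans q2.symm), show y k = _ from
      commutator_congr hc (y := L (da k)) ((hL _).trans q1.symm) rfl]
    refine commutator_jacobi (cp' h1 (ha k) p1 (hL _) (hL _)) (cp' (hb k) h3 p2 q1 q2)
      (cp' h3 hk p3 q2 ?_)
    rw [map_commutatorElement, q1, ← hL, ← map_commutatorElement, hy k hk]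
  have one : ∀ r < 48, ∀ s < 48, ∀ k, S r s k → ⁅L s, L r⁆ = y k := fun r hr s hs k e => by
    obtain ⟨hk, -, -, e⟩ := e.e hr hs
    have inv : ⁅L r, L s⁆ = y k → ⁅L s, L r⁆ = y k := fun e => by
      rw [← commutatorElement_inv, e, inv_eq_of_mul_eq_one_right (hy2 k hk)]
    rcases e with ⟨rfl, rfl⟩ | ⟨rfl, rfl⟩ | e | e
    exacts [rfl, inv rfl, inv (jac hr hs hk e), jac hs hr hk e]
  refine ⟨y, fun k hk => ⟨hy k hk, hy2 k hk⟩, fun r hr s hs k e => (commutator_congr hc
    ((hy s hs).trans (hL s).symm) ((hy r hr).trans (hL r).symm)).trans (one r hr s hs k e),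
    fun i hi => ⟨l (nn chevF4 (xC chevF4 F) (chevF4.simple i) 1), fun k hk => ?_⟩⟩
  have cj : ∀ r < 48, σ (l (nn chevF4 (xC chevF4 F) (chevF4.simple i) 1) * L r *
      (l (nn chevF4 (xC chevF4 F) (chevF4.simple i) 1))⁻¹) = σ (L (chevF4.reflectRoot i r)) := by
    intro r hr
    rw [map_mul, map_mul, map_inv, hl, hL, hL]
    rcases et_sign (D := chevF4) ⟨i, hi⟩ ⟨r, hr⟩ with e | e <;>
      simpa [e, neg1] using h.nconj ⟨i, hi⟩ ⟨r, hr⟩ 1
  rw [← one _ (goodF4.out.refl_lt i hi _ (ha k)) _ (goodF4.out.refl_lt i hi _ (hb k)) _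
    ((c_dec k hk).2 i hi), conjugate_commutatorElement]
  exact commutator_congr hc (cj _ (hb k)) (cj _ (ha k))

omit hs hc h2 hF in
theorem card_ker_le [Fintype F] [Finite Γ] (hF : Nat.card F = 2) (hσ : IsStemExtension σ) :
    Nat.card σ.ker ≤ 2 := by
  obtain ⟨h1, h2⟩ := field_prime_facts Nat.prime_two hF
  obtain ⟨T⟩ := exists_rootTable (D := chevF4) (by simp)
  have h := adj_xC (F := F) T
  have hc := hσ.2.1
  obtain ⟨y, hy, y1, y2⟩ := exists_y hσ.1 hc h2 h1
  have cp' : ∀ {r s : ℕ}, r < 48 → s < 48 → 0 ≤ chevF4.pairing r s → Commute (y r) (y s) :=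
    fun hr hs' e => cp hσ.1 hc h2 h1 ⟨_, hr⟩ ⟨_, hs'⟩ e _ (h.mem_Xt.2 ⟨_, (hy _ hr).1⟩) _
      (h.mem_Xt.2 ⟨_, (hy _ hs').1⟩)
  have hW : ∀ r < 48, ∀ s < 48, B r s → Commute ((tl r s).map y).prod (y s) ∧
      ((tl r s).map y).prod ^ 2 = 1 := fun r hr s hs e => by
    have := e.2.1
    generalize tl r s = L at this
    induction L with
    | nil => simp
    | cons k L ih =>
      obtain ⟨a, b⟩ := ih fun k' hk' => let ⟨a, b, c⟩ := this k' (List.mem_cons_of_mem _ hk')
        ⟨a, b, fun j hj => c j (List.mem_cons_of_mem _ hj)⟩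
      obtain ⟨c, d, e⟩ := this k List.mem_cons_self
      rw [List.map_cons, List.prod_cons, Commute.mul_pow, b, mul_one, sq]
      · exact ⟨(cp' c hs d).mul_left a, (hy k c).2⟩
      · refine Commute.list_prod_right _ _ fun x hx => ?_
        obtain ⟨j, hj, rfl⟩ := List.mem_map.1 hx
        exact cp' c (this j (List.mem_cons_of_mem _ hj)).1 (e j (List.mem_cons_of_mem _ hj))
  obtain ⟨z, hz, hz', e0⟩ := exists_central_of_map_eq hc
    (x := y 44 * y 6 * ((tl 44 6).map y).prod) (y := y 6 * y 44) (by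
      have neg1 : (-1 : F) = 1 := by push_cast at h2; linear_combination -h2
      have := h.st0.comm 44 6 (by decide) (by decide) (by decide) (by decide) 1 1
      rw [ChevalleyDatum.commWord, show chevF4.commTerms 44 6 = [(29, 1, 1, 1), (47, -1, 2, 1)] by
        decide] at this
      simpa [show tl 44 6 = [29, 47] by decide, hy, neg1, mul_assoc] using this.symm)
  have hz2 : z ^ 2 = 1 := by
    obtain ⟨a, b⟩ := hW 44 (by norm_num) 6 (by norm_num)
      ((c_two 44 (by norm_num) 6 (by norm_num) (by decide)).resolve_left (by decide))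
    have e1 : ((y 44)⁻¹ * y 6 * y 44) ^ 2 = 1 := by
      rw [sq, show ∀ a b : Γ, a⁻¹ * b * a * (a⁻¹ * b * a) = a⁻¹ * (b * b) * a from fun a b => by group,
        (hy 6 (by norm_num)).2]
      simp
    rwa [mul_assoc, e0, mul_assoc, mul_assoc, inv_mul_cancel_left, ← mul_assoc,
      Commute.mul_pow (hz' _), a.symm.mul_pow, b, sq (y 6), (hy 6 (by norm_num)).2, one_mul,
      one_mul] at e1
  have h0 : Subgroup.zpowers z ≤ σ.ker := Subgroup.zpowers_le.2 hz
  have := normal_of_le_center (h0.trans hc)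
  let π := QuotientGroup.mk' (Subgroup.zpowers z)
  have hπ : ∀ L : List ℕ, (L.map fun r => π (y r)).prod = π (L.map y).prod := fun L => by
    rw [map_list_prod, List.map_map]; rfl
  have key : ∀ r s : Rt chevF4, A r s = -2 → s ≠ ng r →
      π (y s) * π (y r) = π (y r) * π (y s) * π ((tl r s).map y).prod := by
    refine pair_induction (fun r s hrs e1 e2 => ?_) fun i r s ih e1 e2 => ?_
    · have e := (by decide +kernel : ∀ e ∈ goodF4.dom, chevF4.pairing e.1 e.2 = -2 →
        e.2 ≠ chevF4.neg e.1 → e = (44, 6)) _ hrs e1 fun e => e2 (Fin.ext e)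
      rw [show (r : ℕ) = 44 from congrArg Prod.fst e, show (s : ℕ) = 6 from congrArg Prod.snd e,
        ← map_mul, e0, map_mul, show π z = 1 from (QuotientGroup.eq_one_iff z).2
          (Subgroup.mem_zpowers z), mul_one, map_mul, map_mul]
    · rw [A_sw_sw] at e1
      rw [sw_ne_ng_iff] at e2
      obtain ⟨-, b1, b2⟩ := (c_two r r.2 s s.2 e1).resolve_left fun e => e2 (Fin.ext e)
      obtain ⟨n, hn⟩ := y2 i i.2
      have e3 : (((tl r s).map (chevF4.reflectRoot i)).map y).prod =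
          MulAut.conj n ((tl r s).map y).prod := by
        rw [map_list_prod, List.map_map, List.map_map]
        exact congrArg _ (List.map_congr_left fun k hk => (hn k (b1 k hk).1).symm)
      rw [sw_val, sw_val, b2 i i.2, e3, ← hn r r.2, ← hn s s.2]
      simpa [mul_assoc] using congrArg (MulAut.conj (π n)) (ih e1 e2)
  have hst := isStOn_fam (two_facts hF).1 (two_facts hF).2 (Z := fun r => π (y r))
    (Φ := {r | r < 48}) (fun _ => id) (fun r hr => by rw [← map_mul, (hy r hr).2, map_one])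
    fun r hr s hs e1 e2 => by
      rw [hπ]
      rcases c_pair r hr s hs with e | e | ⟨e, e'⟩ | e | e | ⟨k, -, e', e⟩
      · exact absurd e e1
      · exact absurd e e2
      · rw [e', ← map_mul, ← (cp' hr hs e).eq]; simp
      · exact key ⟨r, hr⟩ ⟨s, hs⟩ e fun e => e2 (congrArg Fin.val e)
      · have e3 : (⟨r, hr⟩ : Rt chevF4) ≠ ng (D := chevF4) ⟨s, hs⟩ := fun e =>
          e2 (congrArg Fin.val (ng_eq_iff.1 e.symm))
        have b := (c_two s hs r hr e).resolve_left fun e => e3 (Fin.ext e)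
        have := key ⟨s, hs⟩ ⟨r, hr⟩ e e3
        simp only at this
        rw [this, b.1, mul_assoc, ← sq, ← map_pow, (hW s hs r hr b).2, map_one, mul_one]
      · obtain ⟨hk, a, b, -⟩ := e.e hr hs
        rw [e', List.map_singleton, List.prod_singleton, ← map_mul, ← map_mul, ← map_mul,
          ← ((cp' hk hr a).mul_right (cp' hk hs b)).eq, ← y1 r hr s hs k e]
        simp [commutatorElement_def]
  have hcomp : (QuotientGroup.lift _ σ h0).comp π = σ := by ext; simp [π]
  have h3 := card_ker_le_of_lift (by simp) (isStemExtension_of_quotient hσ.1 hc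
    (QuotientGroup.mk'_surjective _) hcomp (le_sup_of_le_right (le_inf le_rfl hσ.2.2)))
    ⟨fun r hr => hst.add r hr, fun r s hr hs => hst.comm r hr s hs⟩ fun r hr t => by
      rcases (two_facts hF).2 t with rfl | rfl
      · simpa [fam] using (h.x_zero ⟨r, hr⟩).symm
      · simpa [fam, π] using (hy r hr).1
  replace h3 := h3.trans (Chev.card_ker_tor (p := (chevF4, 1)) rfl (by simp)).le
  have h4 : σ.ker = Subgroup.zpowers z := le_antisymm (fun a ha => (QuotientGroup.eq_one_iff a).1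
    (Subgroup.mem_bot.1 ((Subgroup.eq_bot_of_card_le _ h3).le (show _ = 1 by simpa using ha)))) h0
  rw [h4, Nat.card_zpowers]
  exact orderOf_le_of_pow_eq_one two_pos hz2

end Cfsg.Agent.Mult.F42
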