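import Cfsg.Agent.Mult.Basic

/-!
The Schur multiplier of a metacyclic group.
-/

set_option autoImplicit false

universe u v

namespace Cfsg.Agent.Mult.Meta

open Cfsg Cfsg.Agent.FGS Cfsg.Agent.Mult
open scoped commutatorElement

/-- The kernel of a stem extension of a metacyclic group lies in the cyclic group generated by
the commutator of the generators. -/
theorem up {Γ : Type u} {G : Type v} [Group Γ] [Finite Γ] [Group G] {σ : Γ →* G} (hσ : IsStemExtension σ)
    {a b : G} (hgen : Subgroup.closure {a, b} = ⊤) {m n t r : ℕ} (hr0 : 0 < r) (ha : a ^ m = 1)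
    (hb : b ^ n = a ^ t) (hr : b * a * b⁻¹ = a ^ r) :
    ∃ c : Γ, c ^ m = 1 ∧ c ^ t = 1 ∧ c ^ (∑ i ∈ Finset.range n, r ^ i) = 1 ∧
      σ c = a ^ (r - 1) ∧ σ.ker ≤ Subgroup.zpowers c := by
  obtain ⟨A, rfl⟩ := hσ.1 a
  obtain ⟨B, rfl⟩ := hσ.1 b
  obtain ⟨r, rfl⟩ : ∃ r', r = r' + 1 := ⟨r - 1, by omega⟩
  have hz : ∀ {z}, σ z = 1 → ∀ g, Commute g z := fun h g =>
    Subgroup.mem_center_iff.1 (hσ.2.1 h) g
  set c := B * A * B⁻¹ * A⁻¹ with hc
  have hσc : σ c = σ A ^ r := by
    simp only [hc, map_mul, map_inv]; rw [hr, pow_succ, mul_inv_cancel_right]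
  have hγ : σ (c * (A ^ r)⁻¹) = 1 := by rw [map_mul, map_inv, map_pow, hσc, mul_inv_cancel]
  have hcγ : c = c * (A ^ r)⁻¹ * A ^ r := by group
  have hAc : Commute c A := by
    rw [hcγ]; exact ((hz hγ A).symm).mul_left ((Commute.refl A).pow_left r)
  have hBA : B * A * B⁻¹ = c * A := by rw [hc]; group
  have hj : ∀ j : ℕ, B * A ^ j * B⁻¹ = c ^ j * A ^ j := fun j => by
    rw [← conj_pow, hBA, hAc.mul_pow]
  have hj' : ∀ j : ℕ, Commute B (A ^ j) → c ^ j = 1 := fun j h => by
    have := hj j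
    rw [h.eq, mul_inv_cancel_right] at this
    exact (mul_eq_right.1 this.symm)
  have hBc : B * c * B⁻¹ = c ^ (r + 1) := by
    have h1 : B * c * B⁻¹ = c * (A ^ r)⁻¹ * (B * A ^ r * B⁻¹) := by
      conv_lhs => rw [hcγ, ← mul_assoc, (hz hγ B).eq]
      group
    rw [h1, hj, mul_assoc, ← mul_assoc _ (c ^ r), ← ((hAc.pow_pow r r).inv_right).eq,
      inv_mul_cancel_right, pow_succ']
  have hβ : σ (B ^ n * (A ^ t)⁻¹) = 1 := by
    rw [map_mul, map_inv, map_pow, map_pow, hb, mul_inv_cancel]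
  have hs : ∀ i : ℕ, B ^ i * A * (B ^ i)⁻¹ = c ^ (∑ j ∈ Finset.range i, (r + 1) ^ j) * A := by
    intro i
    induction i with
    | zero => simp
    | succ i ih =>
      have : B ^ (i + 1) * A * (B ^ (i + 1))⁻¹ = B * (B ^ i * A * (B ^ i)⁻¹) * B⁻¹ := by group
      rw [this, ih, Finset.sum_range_succ', pow_zero, pow_succ c, mul_assoc _ c, ← hBA]
      simp only [pow_succ' (r + 1), ← Finset.mul_sum]
      rw [pow_mul, ← hBc, conj_pow]
      group
  have htop : ∀ H : Subgroup Γ, A ∈ H → B ∈ H → σ.ker ≤ H → H = ⊤ := fun H h1 h2 h3 => by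
    rw [← Subgroup.comap_map_eq_self h3, eq_top_iff.2 (hgen.ge.trans
      ((Subgroup.closure_le (H.map σ)).2 ?_)), Subgroup.comap_top]
    rintro _ (rfl | rfl)
    exacts [⟨A, h1, rfl⟩, ⟨B, h2, rfl⟩]
  refine ⟨c, hj' m (hz (by rw [map_pow, ha]) B), hj' t ?_, ?_, by simpa using hσc,
    hσ.2.2.trans ?_⟩
  · have : A ^ t = (B ^ n * (A ^ t)⁻¹)⁻¹ * B ^ n := by group
    rw [this]
    exact ((hz hβ B).inv_right).mul_right ((Commute.refl B).pow_right n)
  · have h1 : Commute (B ^ n) A := by
      have : B ^ n = B ^ n * (A ^ t)⁻¹ * A ^ t := by group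
      rw [this]
      exact ((hz hβ A).symm).mul_left ((Commute.refl A).pow_left t)
    have := hs n
    rw [h1.eq, mul_inv_cancel_right] at this
    exact mul_eq_right.1 this.symm
  · have hnm : ∀ g : Γ, g * c * g⁻¹ ∈ Subgroup.zpowers c →
        g ∈ Subgroup.normalizer (Subgroup.zpowers c : Set Γ) := fun g h =>
      Subgroup.mem_normalizer_fintype (by
        rintro _ ⟨j, rfl⟩
        rw [← conj_zpow]
        exact Subgroup.zpow_mem _ h j)
    have hN : (Subgroup.zpowers c).Normal := Subgroup.normalizer_eq_top_iff.1 (htop _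
      (hnm _ (by rw [← hAc.eq, mul_inv_cancel_right]; exact Subgroup.mem_zpowers _))
      (hnm _ (hBc ▸ Subgroup.pow_mem _ (Subgroup.mem_zpowers _) _))
      fun z h => hnm _ (by rw [← (hz h c).eq, mul_inv_cancel_right]; exact Subgroup.mem_zpowers _))
    let π := QuotientGroup.mk' (Subgroup.zpowers c)
    have hAB : π B * π A = π A * π B := by
      have : π (B * A * B⁻¹ * A⁻¹) = 1 := (QuotientGroup.eq_one_iff _).2 (Subgroup.mem_zpowers _)
      rw [map_mul, map_mul, map_mul, map_inv, map_inv, mul_inv_eq_one, mul_inv_eq_iff_eq_mul]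
        at this
      exact this
    have hcen : ∀ x, π A * π x = π x * π A → π B * π x = π x * π B →
        π x ∈ Subgroup.center _ := fun x h1 h2 => by
      rw [Subgroup.mem_center_iff]
      intro g
      obtain ⟨g, rfl⟩ := QuotientGroup.mk'_surjective _ g
      have := htop ((Subgroup.centralizer {π x}).comap π)
        (Subgroup.mem_centralizer_singleton_iff.2 h1)
        (Subgroup.mem_centralizer_singleton_iff.2 h2) fun z h =>
        Subgroup.mem_centralizer_singleton_iff.2 (by rw [← map_mul, ← map_mul, (hz h x).eq])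
      exact Subgroup.mem_centralizer_singleton_iff.1 (this.ge (Subgroup.mem_top g))
    have hall := htop ((Subgroup.center _).comap π) (hcen _ rfl hAB) (hcen _ hAB.symm rfl)
      fun z h => hcen _ (by rw [← map_mul, ← map_mul, (hz h A).eq])
        (by rw [← map_mul, ← map_mul, (hz h B).eq])
    rw [commutator, Subgroup.commutator_le]
    intro x _ y _
    rw [← QuotientGroup.eq_one_iff, ← QuotientGroup.mk'_apply, map_commutatorElement,
      commutatorElement_eq_one_iff_mul_comm]
    exact Subgroup.mem_center_iff.1 (hall.ge (Subgroup.mem_top y)) _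

section Model

variable {N : Type} [CommGroup N] (f : MulAut N)

/-- The extension of `N` by an infinite cyclic group acting through `f`. -/
abbrev Ext : Type := N ⋊[zpowersHom (MulAut N) f] Multiplicative ℤ

/-- The generator of the cyclic complement. -/
def gB : Ext f := SemidirectProduct.inr (Multiplicative.ofAdd 1)

theorem gB_pow (i : ℕ) : gB f ^ i = SemidirectProduct.inr (Multiplicative.ofAdd (i : ℤ)) := by
  rw [gB, ← map_pow, ← ofAdd_nsmul]; simp

theorem gB_conj (i : ℕ) (x : N) :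
    gB f ^ i * SemidirectProduct.inl x * (gB f ^ i)⁻¹ = SemidirectProduct.inl ((f ^ i) x) := by
  rw [gB_pow, ← map_inv, ← SemidirectProduct.inl_aut]; simp

theorem mem_center {g : Ext f} (h1 : ∀ x, Commute g (SemidirectProduct.inl x))
    (h2 : Commute g (gB f)) : g ∈ Subgroup.center (Ext f) := by
  rw [Subgroup.mem_center_iff]
  intro y
  rw [← SemidirectProduct.inl_left_mul_inr_right y]
  refine ((h1 _).mul_right ?_).symm
  have : SemidirectProduct.inr y.right = gB f ^ y.right.toAdd := by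
    rw [gB, ← map_zpow, ← ofAdd_zsmul]; simp
  rw [this]
  exact h2.zpow_right _

theorem inl_comm (x y : N) :
    Commute (SemidirectProduct.inl x : Ext f) (SemidirectProduct.inl y) :=
  (Commute.all x y).map _

theorem inl_center {x : N} (h : f x = x) : SemidirectProduct.inl x ∈ Subgroup.center (Ext f) :=
  mem_center f (inl_comm f x) (by
    have := gB_conj f 1 x
    rw [pow_one, pow_one, h, mul_inv_eq_iff_eq_mul] at this
    exact this.symm)

theorem pow_center {n : ℕ} (h : f ^ n = 1) : gB f ^ n ∈ Subgroup.center (Ext f) :=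
  mem_center f (fun x => by
    have := gB_conj f n x
    rw [h, mul_inv_eq_iff_eq_mul] at this
    exact this) ((Commute.refl _).pow_left n)

end Model

/-- The relators of the metacyclic group. -/
abbrev rels (m n r t : ℕ) : Set (FreeGroup Bool) :=
  {FreeGroup.of true ^ m, (FreeGroup.of false) ^ n * (FreeGroup.of true ^ t)⁻¹,
    FreeGroup.of false * FreeGroup.of true * (FreeGroup.of false)⁻¹ * (FreeGroup.of true ^ r)⁻¹}

variable {m n r t : ℕ}

/-- The generator of the cyclic normal subgroup. -/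
def a (m n r t : ℕ) : PresentedGroup (rels m n r t) := PresentedGroup.of true
/-- The second generator. -/
def b (m n r t : ℕ) : PresentedGroup (rels m n r t) := PresentedGroup.of false

theorem rel_one {w : FreeGroup Bool} (h : w ∈ rels m n r t) :
    PresentedGroup.mk (rels m n r t) w = 1 := PresentedGroup.one_of_mem h

theorem ha : a m n r t ^ m = 1 := by
  have := rel_one (m := m) (n := n) (r := r) (t := t) (Or.inl rfl)
  rw [map_pow] at this
  exact this

theorem hb : b m n r t ^ n = a m n r t ^ t := by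
  have := rel_one (m := m) (n := n) (r := r) (t := t) (Or.inr (Or.inl rfl))
  rw [map_mul, map_inv, mul_inv_eq_one, map_pow, map_pow] at this
  exact this

theorem hr : b m n r t * a m n r t * (b m n r t)⁻¹ = a m n r t ^ r := by
  have := rel_one (m := m) (n := n) (r := r) (t := t) (Or.inr (Or.inr rfl))
  rw [map_mul, map_inv, mul_inv_eq_one, map_pow, map_mul, map_mul, map_inv] at this
  exact this

theorem hgen : Subgroup.closure {a m n r t, b m n r t} = ⊤ := by
  rw [← PresentedGroup.closure_range_of]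
  congr 1
  ext x
  simp [a, b, eq_comm, or_comm]

theorem finite (hm : 0 < m) (hn : 0 < n) : Finite (PresentedGroup (rels m n r t)) := by
  have h1 : IsOfFinOrder (a m n r t) := isOfFinOrder_iff_pow_eq_one.2 ⟨m, hm, ha⟩
  have : Finite (Subgroup.zpowers (a m n r t)) := h1.finite_zpowers
  have hnm : ∀ g, g * a m n r t * g⁻¹ ∈ Subgroup.zpowers (a m n r t) →
      g ∈ Subgroup.normalizer (Subgroup.zpowers (a m n r t) : Set _) := fun g h =>
    Subgroup.mem_normalizer_fintype (by
      rintro _ ⟨j, rfl⟩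
      rw [← conj_zpow]
      exact Subgroup.zpow_mem _ h j)
  have hN : (Subgroup.zpowers (a m n r t)).Normal := by
    rw [← Subgroup.normalizer_eq_top_iff, eq_top_iff, ← hgen, Subgroup.closure_le]
    rintro _ (rfl | rfl)
    · exact hnm _ (by simp)
    · exact hnm _ (hr ▸ Subgroup.pow_mem _ (Subgroup.mem_zpowers _) _)
  let π := QuotientGroup.mk' (Subgroup.zpowers (a m n r t))
  have h2 : IsOfFinOrder (π (b m n r t)) := isOfFinOrder_iff_pow_eq_one.2 ⟨n, hn, by
    rw [← map_pow, hb]
    exact (QuotientGroup.eq_one_iff _).2 (Subgroup.pow_mem _ (Subgroup.mem_zpowers _) _)⟩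
  have h3 : Subgroup.zpowers (π (b m n r t)) = ⊤ := by
    rw [eq_top_iff, ← Subgroup.map_top_of_surjective π (QuotientGroup.mk'_surjective _), ← hgen,
      MonoidHom.map_closure, Subgroup.closure_le]
    rintro _ ⟨_, rfl | rfl, rfl⟩
    · rw [show π (a m n r t) = 1 from (QuotientGroup.eq_one_iff _).2 (Subgroup.mem_zpowers _)]
      exact one_mem _
    · exact Subgroup.mem_zpowers _
  have : Finite (Subgroup.zpowers (π (b m n r t))) := h2.finite_zpowers
  have : Finite (_ ⧸ Subgroup.zpowers (a m n r t)) :=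
    Finite.of_surjective (Subgroup.zpowers (π (b m n r t))).subtype fun y =>
      ⟨⟨y, h3 ▸ Subgroup.mem_top y⟩, rfl⟩
  exact Finite.of_subgroup_quotient (Subgroup.zpowers (a m n r t))

/-- The generator `a` has order exactly `m`. -/
theorem orderOf_a (hn : 0 < n) (hrn : r ^ n ≡ 1 [MOD m]) (hr0 : 0 < r)
    (ht : m ∣ (r - 1) * t) : orderOf (a m n r t) = m := by
  have hu : (r : ZMod m) ^ n = 1 := by
    have := (ZMod.natCast_eq_natCast_iff _ _ _).2 hrn
    simpa using this
  let u : (ZMod m)ˣ := Units.ofPowEqOne (r : ZMod m) n hu hn.ne'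
  let f : MulAut (Multiplicative (ZMod m)) :=
    AddEquiv.toMultiplicative (DistribMulAction.toAddEquiv (ZMod m) u)
  have hf : ∀ i x, (f ^ i) (Multiplicative.ofAdd x) = Multiplicative.ofAdd ((r : ZMod m) ^ i * x) := by
    intro i x
    induction i with
    | zero => simp
    | succ i ih =>
      rw [pow_succ', MulAut.mul_apply, ih, pow_succ', mul_assoc]; rfl
  have hfn : f ^ n = 1 := MulEquiv.ext fun x => by
    rw [← ofAdd_toAdd x, hf, hu, one_mul]; rfl
  let A : Ext f := SemidirectProduct.inl (Multiplicative.ofAdd 1)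
  have hA : ∀ j : ℕ, A ^ j = SemidirectProduct.inl (Multiplicative.ofAdd (j : ZMod m)) := fun j => by
    rw [← map_pow, ← ofAdd_nsmul]; simp
  have hβ : gB f ^ n * (A ^ t)⁻¹ ∈ Subgroup.center (Ext f) := by
    refine mul_mem (pow_center f hfn) (inv_mem ?_)
    rw [hA]
    refine inl_center f ?_
    rw [← pow_one f, hf, pow_one]
    obtain ⟨r, rfl⟩ : ∃ r', r = r' + 1 := ⟨r - 1, by omega⟩
    have := (ZMod.natCast_eq_zero_iff _ _).2 ht
    congr 1
    push_cast [Nat.add_sub_cancel] at this ⊢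
    linear_combination this
  have hN := normal_of_le_center (Subgroup.zpowers_le.2 hβ)
  let π := QuotientGroup.mk' (Subgroup.zpowers (gB f ^ n * (A ^ t)⁻¹))
  have hrel : ∀ w ∈ rels m n r t, FreeGroup.lift (fun x => bif x then π A else π (gB f)) w = 1 := by
    rintro _ (rfl | rfl | rfl)
    · simp only [map_pow, FreeGroup.lift_apply_of, cond_true]
      rw [← map_pow π, hA m]; simp
    · simp only [map_pow, map_mul, map_inv, FreeGroup.lift_apply_of, cond_true, cond_false]
      rw [← map_pow π, ← map_pow π, ← map_inv, ← map_mul]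
      exact (QuotientGroup.eq_one_iff _).2 (Subgroup.mem_zpowers _)
    · simp only [map_pow, map_mul, map_inv, FreeGroup.lift_apply_of, cond_true, cond_false]
      have := gB_conj f 1 (Multiplicative.ofAdd 1)
      rw [hf, pow_one, pow_one, mul_one, ← hA] at this
      rw [← map_pow π, ← this]; simp [A]
  refine Nat.dvd_antisymm (orderOf_dvd_of_pow_eq_one ha) ?_
  have h1 := congrArg (PresentedGroup.toGroup hrel) (pow_orderOf_eq_one (a m n r t))
  rw [map_pow, map_one, a, PresentedGroup.toGroup.of, cond_true, ← map_pow π] at h1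
  obtain ⟨v, hv⟩ := (QuotientGroup.eq_one_iff _).1 h1
  have h2 := congrArg (fun g => (SemidirectProduct.rightHom g).toAdd) hv
  simp only [hA, gB_pow, map_zpow, map_mul, map_inv, SemidirectProduct.rightHom_inl,
    SemidirectProduct.rightHom_inr, inv_one, mul_one, toAdd_zpow, toAdd_ofAdd, toAdd_one,
    smul_eq_mul, mul_eq_zero, Nat.cast_eq_zero] at h2
  obtain rfl : v = 0 := h2.resolve_right hn.ne'
  simp only [zpow_zero, hA] at hv
  rw [← map_one SemidirectProduct.inl] at hv
  exact (ZMod.natCast_eq_zero_iff _ _).1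
    (Multiplicative.ofAdd.injective (SemidirectProduct.inl_injective hv)).symm

/-- A central extension in which the commutator of the generators has order `e`. -/
theorem low (hm : 0 < m) (hn : 0 < n) (hrn : r ^ n ≡ 1 [MOD m]) (hr0 : 0 < r) {j k : ℕ}
    (hj0 : 0 < j) (hj : m ∣ (r - 1) * j) (h1 : j * k ∣ m) (h2 : j * k ∣ t)
    (h3 : j * k ∣ ∑ i ∈ Finset.range n, r ^ i) : k ∣ mcard (PresentedGroup (rels m n r t)) := by
  have := finite (r := r) (t := t) hm hn
  have hu : (r : ZMod (j * k)) ^ n = 1 := by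
    have := (ZMod.natCast_eq_natCast_iff _ _ _).2 (hrn.of_dvd h1)
    simpa using this
  let u : (ZMod (j * k))ˣ := Units.ofPowEqOne (r : ZMod (j * k)) n hu hn.ne'
  have hur : (u : ZMod (j * k)) = r := rfl
  let f0 : ℤ × ZMod (j * k) ≃+ ℤ × ZMod (j * k) :=
    { toFun := fun x => (x.1, u * x.2 + x.1)
      invFun := fun x => (x.1, (u⁻¹ : (ZMod (j * k))ˣ) * (x.2 - x.1))
      left_inv := fun x => by simp
      right_inv := fun x => by simp
      map_add' := fun x y => by simp; ring }
  let f : MulAut (Multiplicative (ℤ × ZMod (j * k))) := AddEquiv.toMultiplicative f0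
  have hf : ∀ (i : ℕ) (x : ℤ) y, (f ^ i) (Multiplicative.ofAdd (x, y)) = Multiplicative.ofAdd
      (x, (r : ZMod (j * k)) ^ i * y + (∑ l ∈ Finset.range i, r ^ l : ℕ) * x) := by
    intro i x y
    induction i with
    | zero => simp
    | succ i ih =>
      rw [pow_succ', MulAut.mul_apply, ih, Finset.sum_range_succ']
      change Multiplicative.ofAdd (x, (u : ZMod (j * k)) * _ + x) = _
      simp only [pow_succ' r, ← Finset.mul_sum, hur, toAdd_ofAdd]
      congr 2
      push_cast
      ring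
  have hf1 : ∀ (x : ℤ) y, f (Multiplicative.ofAdd (x, y)) =
      Multiplicative.ofAdd (x, (r : ZMod (j * k)) * y + x) := fun _ _ => rfl
  have hfn : f ^ n = 1 := MulEquiv.ext fun x => by
    rw [← ofAdd_toAdd x, ← Prod.mk.eta (p := x.toAdd), hf, hu,
      (ZMod.natCast_eq_zero_iff _ _).2 h3]
    simp
  let A : Ext f := SemidirectProduct.inl (Multiplicative.ofAdd (1, 0))
  have hA : ∀ i : ℕ, A ^ i = SemidirectProduct.inl (Multiplicative.ofAdd ((i : ℤ), 0)) := fun i => by
    rw [← map_pow, ← ofAdd_nsmul]; simp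
  have hAc : ∀ i : ℕ, j * k ∣ i → A ^ i ∈ Subgroup.center (Ext f) := fun i hi => by
    rw [hA]
    refine inl_center f ?_
    rw [hf1]; simp [(ZMod.natCast_eq_zero_iff _ _).2 hi]
  have hBA : gB f * A * (gB f)⁻¹ = SemidirectProduct.inl (Multiplicative.ofAdd (1, 1)) := by
    have := gB_conj f 1 (Multiplicative.ofAdd (1, 0))
    rw [pow_one, pow_one, hf1] at this
    simpa using this
  let θ : FreeGroup Bool →* Ext f := FreeGroup.lift fun x => bif x then A else gB f
  let ψ := θ.prod (PresentedGroup.mk (rels m n r t))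
  let σ : ψ.range →* PresentedGroup (rels m n r t) := (MonoidHom.snd _ _).comp ψ.range.subtype
  have hσ : Function.Surjective σ := fun g => by
    obtain ⟨w, rfl⟩ := PresentedGroup.mk_surjective _ g
    exact ⟨⟨_, w, rfl⟩, rfl⟩
  have hθ : Subgroup.normalClosure (rels m n r t) ≤ (Subgroup.center _).comap θ := by
    refine Subgroup.normalClosure_le_normal ?_
    rintro _ (rfl | rfl | rfl)
    · simpa [θ] using hAc m h1
    · simpa [θ] using mul_mem (pow_center f hfn) (inv_mem (hAc t h2))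
    · have : gB f * A * (gB f)⁻¹ * (A ^ r)⁻¹ ∈ Subgroup.center (Ext f) := by
        rw [hBA, hA, ← map_inv, ← map_mul, ← ofAdd_neg, ← ofAdd_add, Prod.neg_mk, Prod.mk_add_mk]
        refine inl_center f ?_
        rw [hf1]; simp
      simpa [θ] using this
  have hc : σ.ker ≤ Subgroup.center _ := by
    rintro ⟨_, w, rfl⟩ hw
    have hw' : PresentedGroup.mk (rels m n r t) w = 1 := hw
    have h := Subgroup.mem_center_iff.1 (hθ ((QuotientGroup.eq_one_iff _).1 hw'))
    rw [Subgroup.mem_center_iff]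
    intro g
    apply Subtype.ext
    refine Prod.ext (h _) ?_
    change g.1.2 * PresentedGroup.mk _ w = PresentedGroup.mk _ w * g.1.2
    rw [hw', mul_one, one_mul]
  refine Dvd.dvd.trans ?_ (card_ker_inf_commutator_dvd hσ hc)
  let c : ψ.range := ⁅ψ.rangeRestrict (FreeGroup.of false), ψ.rangeRestrict (FreeGroup.of true)⁆
  have hc1 : c.1.1 = SemidirectProduct.inl (Multiplicative.ofAdd (0, 1)) := by
    have : c.1.1 = gB f * A * (gB f)⁻¹ * A⁻¹ := by simp [c, ψ, θ, commutatorElement_def]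
    rw [this, hBA, ← map_inv, ← map_mul, ← ofAdd_neg, ← ofAdd_add]; simp
  have hc2 : σ c = a m n r t ^ (r - 1) := by
    have : σ c = b m n r t * a m n r t * (b m n r t)⁻¹ * (a m n r t)⁻¹ := rfl
    rw [this, hr, mul_inv_eq_iff_eq_mul, ← pow_succ, Nat.sub_add_cancel hr0]
  have hmem : c ^ j ∈ σ.ker ⊓ commutator ψ.range := by
    refine ⟨?_, Subgroup.pow_mem _
      (Subgroup.commutator_mem_commutator (Subgroup.mem_top _) (Subgroup.mem_top _)) _⟩
    obtain ⟨i, hi⟩ := hj
    change σ (c ^ j) = 1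
    rw [map_pow, hc2, ← pow_mul, hi, pow_mul, ha, one_pow]
  refine Dvd.dvd.trans ?_ (Subgroup.orderOf_dvd_natCard _ hmem)
  have h4 := congrArg (fun g : ψ.range => g.1.1) (pow_orderOf_eq_one (c ^ j))
  simp only [← pow_mul, Subgroup.coe_pow, Prod.pow_fst, hc1, OneMemClass.coe_one, Prod.fst_one,
    ← map_pow] at h4
  rw [← map_one SemidirectProduct.inl, ← ofAdd_nsmul] at h4
  have h5 := congrArg Prod.snd
    (Multiplicative.ofAdd.injective (SemidirectProduct.inl_injective h4))
  simp only [Prod.smul_mk, nsmul_eq_mul, mul_one] at h5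
  exact Nat.dvd_of_mul_dvd_mul_left hj0 ((ZMod.natCast_eq_zero_iff _ _).1 h5)

theorem main (m n r l : ℕ) (hm : 0 < m) (hn : 0 < n) (hr0 : 0 < r) (hrn : r ^ n ≡ 1 [MOD m]) :
    HasCyclicSchurMultiplier (PresentedGroup (rels m n r (m * l / Nat.gcd m (r - 1))))
      (Nat.gcd l (Nat.gcd m (r - 1) * Nat.gcd m (∑ i ∈ Finset.range n, r ^ i) / m)) := by
  set s := ∑ i ∈ Finset.range n, r ^ i with hs
  have hd0 : 0 < Nat.gcd m (r - 1) := Nat.gcd_pos_of_pos_left _ hm
  obtain ⟨j, hj⟩ := Nat.gcd_dvd_left m (r - 1)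
  obtain ⟨q, hq⟩ := Nat.gcd_dvd_right m (r - 1)
  have hcop : j.Coprime q := by
    have := Nat.gcd_mul_left (Nat.gcd m (r - 1)) j q
    rw [← hj, ← hq] at this
    exact (Nat.mul_eq_left hd0.ne').1 this.symm
  set d := Nat.gcd m (r - 1) with hd
  have hj0 : 0 < j := Nat.pos_of_mul_pos_left (hj ▸ hm)
  have hms : m ∣ (r - 1) * s := by
    have h := Nat.geomSum_eq (m := r + 1) (by omega) n
    have h' : (r - 1) * s + 1 = r ^ n := by
      obtain ⟨r, rfl⟩ : ∃ r', r = r' + 1 := ⟨r - 1, by omega⟩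
      rw [Nat.add_sub_cancel, mul_comm, hs]
      exact geom_sum_mul_add r n
    rw [← h'] at hrn
    exact (Nat.modEq_zero_iff_dvd).1 (Nat.ModEq.add_right_cancel' 1 (by simpa using hrn))
  have hjs : j ∣ s := by
    rw [hj, hq, mul_assoc] at hms
    exact hcop.dvd_of_dvd_mul_left (Nat.dvd_of_mul_dvd_mul_left hd0 hms)
  obtain ⟨h, hh⟩ : j ∣ Nat.gcd m s := Nat.dvd_gcd (Dvd.intro_left _ hj.symm) hjs
  have e1 : m * l / d = j * l := by
    rw [hj, mul_assoc, Nat.mul_div_cancel_left _ hd0]
  have e2 : d * Nat.gcd m s / m = h := by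
    rw [hh, ← mul_assoc, ← hj, Nat.mul_div_cancel_left _ hm]
  rw [e1, e2]
  have hmj : m ∣ (r - 1) * j := ⟨q, by rw [hq, hj]; ring⟩
  have hkh : j * Nat.gcd l h ∣ Nat.gcd m s := hh ▸ Nat.mul_dvd_mul_left j (Nat.gcd_dvd_right l h)
  have := finite (r := r) (t := j * l) hm hn
  have hlow := low (t := j * l) hm hn hrn hr0 hj0 hmj (hkh.trans (Nat.gcd_dvd_left _ _))
    (Nat.mul_dvd_mul_left j (Nat.gcd_dvd_left l h)) (hkh.trans (Nat.gcd_dvd_right _ _))
  have hord := orderOf_a (t := j * l) hn hrn hr0 (by rw [← mul_assoc]; exact hmj.mul_right l)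
  obtain ⟨Γ, _, _, σ, hσ, hk⟩ := exists_cover (PresentedGroup (rels m n r (j * l)))
  obtain ⟨c, c1, c2, c3, c4, c5⟩ := up hσ hgen hr0 ha hb hr
  have hle : σ.ker ≤ Subgroup.zpowers (c ^ j) := fun z hz => by
    obtain ⟨i, rfl⟩ := (mem_powers_iff_mem_zpowers).2 (c5 hz)
    have : σ (c ^ i) = 1 := hz
    rw [map_pow, c4, ← pow_mul, ← orderOf_dvd_iff_pow_eq_one, hord] at this
    conv_lhs at this => rw [hj]
    rw [hq, mul_assoc] at this
    obtain ⟨i', rfl⟩ := hcop.dvd_of_dvd_mul_left (Nat.dvd_of_mul_dvd_mul_left hd0 this)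
    change c ^ (j * i') ∈ _
    rw [pow_mul]
    exact Subgroup.pow_mem _ (Subgroup.mem_zpowers _) _
  have hcyc : IsCyclic σ.ker := Subgroup.isCyclic_of_le hle
  have hup : Nat.card σ.ker ∣ Nat.gcd l h := by
    refine (Subgroup.card_dvd_of_le hle).trans ?_
    rw [Nat.card_zpowers]
    refine Nat.dvd_gcd (orderOf_dvd_of_pow_eq_one (by rw [← pow_mul, c2]))
      (orderOf_dvd_of_pow_eq_one ?_)
    rw [← pow_mul, ← hh, ← orderOf_dvd_iff_pow_eq_one]
    exact Nat.dvd_gcd (orderOf_dvd_of_pow_eq_one c1) (orderOf_dvd_of_pow_eq_one c3)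
  have hcard : Nat.card σ.ker = Nat.gcd l h := Nat.dvd_antisymm hup (hk ▸ hlow)
  refine hasSchurMultiplier_of_card_le hσ (hcard ▸ (zmodCyclicMulEquiv hcyc).symm) ?_
  rw [← hk, hcard, Nat.card_congr Multiplicative.toAdd, Nat.card_zmod]

end Cfsg.Agent.Mult.Meta
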