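import Cfsg.Agent.Mult.Spin

/-!
The multipliers of the projective orthogonal groups.
-/

set_option autoImplicit false

universe u v w

namespace Cfsg.Agent.Mult

open Cfsg.Agent.Class Cfsg.Agent.Class.Orth Module Subgroup
open scoped commutatorElement

theorem card_comap_of_surj {Γ : Type v} {S : Type u} [Group Γ] [Group S] [Finite Γ] {σ : Γ →* S}
    (hs : Function.Surjective σ) (Z : Subgroup S) :
    Nat.card (Z.comap σ) = Nat.card σ.ker * Nat.card Z := by
  have : Finite S := Finite.of_surjective σ hs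
  have h1 := (Z.comap σ).card_mul_index
  rw [index_comap_of_surjective _ hs, ← σ.ker.card_mul_index, index_ker,
    MonoidHom.range_eq_top.2 hs, card_top, ← Z.card_mul_index, ← mul_assoc] at h1
  exact Nat.eq_of_mul_eq_mul_right (Nat.pos_of_ne_zero Z.index_ne_zero_of_finite) h1

theorem hasSchur_of_stem {Γ : Type v} {S : Type u} [Group Γ] [Group S] [Finite Γ] {σ : Γ →* S}
    (hσ : IsStemExtension σ) (hS : commutator S = ⊤) (h : mcard S ≤ Nat.card σ.ker)
    {A : Type w} [CommGroup A] (e : (center S).comap σ ≃* A) :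
    HasSchurMultiplier (S ⧸ center S) A := by
  have : Finite S := Finite.of_surjective σ hσ.1
  have hΓ : commutator Γ = ⊤ := by
    rw [← comap_map_eq_self hσ.2.2, map_commutator_eq, MonoidHom.range_eq_top.2 hσ.1,
      ← _root_.commutator_def, hS, comap_top]
  have hk : ((QuotientGroup.mk' (center S)).comp σ).ker = (center S).comap σ := by
    rw [← MonoidHom.comap_ker, QuotientGroup.ker_mk']
  refine hasSchurMultiplier_of_card_le (σ := (QuotientGroup.mk' _).comp σ)
    ⟨(QuotientGroup.mk'_surjective _).comp hσ.1, ?_, hΓ ▸ le_top⟩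
    ((MulEquiv.subgroupCongr hk).trans e) ?_
  · have h1 : ⁅⁅(center S).comap σ, ⊤⁆, ⊤⁆ = ⊥ := commutator_top_right_eq_bot_iff_le_center.2
      (le_trans (commutator_le.2 fun x hx y _ => by
        rw [MonoidHom.mem_ker, map_commutatorElement, commutatorElement_eq_one_iff_mul_comm]
        exact (mem_center_iff.1 hx _).symm) hσ.2.1)
    rw [hk, ← commutator_top_right_eq_bot_iff_le_center, ← hΓ, commutator_comm,
      _root_.commutator_def]
    exact commutator_commutator_eq_bot_of_rotate (by rwa [commutator_comm ⊤ (comap _ _)]) h1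
  · have := mcard_le_mul_of_surjective hS (QuotientGroup.mk'_surjective (center S))
    rw [QuotientGroup.ker_mk'] at this
    rw [← Nat.card_congr e.toEquiv, card_comap_of_surj hσ.1]
    exact this.trans (Nat.mul_le_mul_right _ h)

variable {F : Type u} {V : Type v} [Field F] [AddCommGroup V] [Module F V] [Finite F] [Finite V]
  {Q : QuadraticForm F V}

theorem card_ker_spinProj (hQ : ND Q) (h2 : (2 : F) ≠ 0) : Nat.card (spinProj Q).ker = 2 := by
  rw [Nat.card_eq_two_iff' (1 : (spinProj Q).ker)]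
  exact ⟨⟨spinNeg Q, rfl⟩, fun h => spinNeg_ne h2 (congrArg Subtype.val h), fun y hy =>
    Subtype.ext (((mem_ker_spinProj hQ h2).1 y.2).resolve_left fun h => hy (Subtype.ext h))⟩

variable (hQ : ND Q) (h7 : 7 ≤ finrank F V) (h8 : Nat.card F ≤ 3 → 8 ≤ finrank F V)
include hQ h7 h8

theorem pOmega_even (hm : Nat.card F = 2 → finrank F V = 8 → ¬ QF.IsPlus Q) (h2 : (2 : F) = 0) :
    HasCyclicSchurMultiplier (commutator (OG Q) ⧸ center (commutator (OG Q))) 1 := by
  have hc := hQ.card_center_Omega_eq_one (by omega) (Or.inl h2)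
  haveI := (Nat.card_eq_one_iff_unique.1 hc).1
  exact hasCyclic_quotient_center (hQ.commutator_Omega_eq_top (by omega))
    ((mcard_Omega_le hQ h7 h8 hm).2 h2) isCyclic_of_subsingleton hc

variable (h2 : (2 : F) ≠ 0)
include h2

theorem pOmega_odd : Finite (SpinG Q) ∧ ∀ {A : Type} [CommGroup A],
    (center _).comap (spinProj Q) ≃* A →
      HasSchurMultiplier (commutator (OG Q) ⧸ center (commutator (OG Q))) A := by
  have h1 := card_ker_spinProj hQ h2
  have : Finite (SpinG Q) := (spinProj Q).finite_iff_finite_ker_range.2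
    ⟨Nat.finite_of_card_ne_zero (by omega), inferInstance⟩
  exact ⟨this, fun e => hasSchur_of_stem (isStem_spinProj hQ h2 h7)
    (hQ.commutator_Omega_eq_top (by omega))
    (h1 ▸ (mcard_Omega_le hQ h7 h8 fun c => absurd (two_facts c).1 h2).1) e⟩

theorem pOmega_two (h : negOne Q ∉ commutator (OG Q)) :
    HasCyclicSchurMultiplier (commutator (OG Q) ⧸ center (commutator (OG Q))) 2 := by
  obtain ⟨_, H⟩ := pOmega_odd hQ h7 h8 h2
  have hc := card_comap_of_surj (spinProj_surjective hQ h2) (center _)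
  rw [card_ker_spinProj hQ h2, hQ.card_center_Omega_eq_one (by omega) (Or.inr h)] at hc
  haveI := Fact.mk Nat.prime_two
  exact H (hc ▸ zmodCyclicMulEquiv (isCyclic_of_prime_card (p := 2) hc)).symm

theorem pOmega_four (h : negOne Q ∈ commutator (OG Q)) (ho : Odd ((finrank F V).choose 2)) :
    HasCyclicSchurMultiplier (commutator (OG Q) ⧸ center (commutator (OG Q))) 4 := by
  obtain ⟨_, H⟩ := pOmega_odd hQ h7 h8 h2
  have hc := card_comap_of_surj (spinProj_surjective hQ h2) (center _)
  rw [card_ker_spinProj hQ h2, hQ.card_center_Omega_eq_two (by omega) h2 h] at hc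
  obtain ⟨g, h1, h3⟩ := exists_spin_negOne hQ h2 h
  have h4 : spinNeg Q ^ 2 = 1 := spin_ext (by simp [spinNeg]) rfl
  obtain ⟨k, hk⟩ := ho
  rw [hk, pow_succ, pow_mul, h4, one_pow, one_mul] at h3
  have hg : g ∈ (center _).comap (spinProj Q) := by
    rw [mem_comap, h1]; exact (hQ.mem_center_Omega (by omega) _).2 (Or.inr rfl)
  haveI := Fact.mk Nat.prime_two
  have h5 : orderOf g = 2 ^ (1 + 1) := orderOf_eq_prime_pow
    (by rw [pow_one, pow_two, h3]; exact spinNeg_ne h2)
    (by rw [pow_succ, pow_one, pow_mul, pow_two g, h3, h4])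
  exact H (hc ▸ zmodCyclicMulEquiv (isCyclic_of_orderOf_eq_card (⟨g, hg⟩ : comap _ _)
    (by rw [hc, ← orderOf_coe, h5]; rfl))).symm

theorem pOmega_klein (h : negOne Q ∈ commutator (OG Q)) (he : Even ((finrank F V).choose 2)) :
    HasSchurMultiplier (commutator (OG Q) ⧸ center (commutator (OG Q)))
      (Multiplicative (ZMod 2 × ZMod 2)) := by
  obtain ⟨_, H⟩ := pOmega_odd hQ h7 h8 h2
  have hc := card_comap_of_surj (spinProj_surjective hQ h2) (center _)
  rw [card_ker_spinProj hQ h2, hQ.card_center_Omega_eq_two (by omega) h2 h] at hc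
  obtain ⟨g, h1, h3⟩ := exists_spin_negOne hQ h2 h
  have h4 : spinNeg Q ^ 2 = 1 := spin_ext (by simp [spinNeg]) rfl
  obtain ⟨k, hk⟩ := he
  rw [hk, ← two_mul, pow_mul, h4, one_pow] at h3
  have h5 : ∀ x ∈ (spinProj Q).ker, x ^ 2 = 1 := fun x hx => by
    rcases (mem_ker_spinProj hQ h2).1 hx with rfl | rfl
    exacts [one_pow _, h4]
  have h6 : ∀ x : (center _).comap (spinProj Q), x ^ 2 = 1 := fun x => Subtype.ext (by
    rcases (hQ.mem_center_Omega (by omega) _).1 x.2 with c | c
    · exact h5 _ (Subtype.ext c)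
    have h7 : g⁻¹ * x ∈ (spinProj Q).ker := by
      rw [MonoidHom.mem_ker, map_mul, map_inv, h1, inv_mul_eq_one]; exact Subtype.ext c.symm
    have h8 := Commute.mul_pow (mem_center_iff.1 ((isStem_spinProj hQ h2 ‹_›).2.1 h7) g) 2
    rwa [mul_inv_cancel_left, h5 _ h7, pow_two g, h3, one_mul] at h8)
  have : Nontrivial ((center _).comap (spinProj Q)) := Finite.one_lt_card_iff_nontrivial.1 (by omega)
  have : IsKleinFour ((center _).comap (spinProj Q)) :=
    ⟨hc, (Monoid.exponent_eq_prime_iff Nat.prime_two).2 fun x hx =>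
      haveI := Fact.mk Nat.prime_two; orderOf_eq_prime (h6 x) hx⟩
  exact H IsKleinFour.nonempty_mulEquiv.some

end Cfsg.Agent.Mult
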