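import Cfsg.Agent.Mult.BaseO
import Cfsg.Agent.Mult.SpMain
import Cfsg.Agent.Class.Orth.POrder
import Cfsg.Agent.Class.Orth.TypeCount

/-!
The multiplier of `Ω(Q)` has order at most two.
-/

set_option autoImplicit false

universe u v

namespace Cfsg.Agent.Mult

open Cfsg.Agent.Class.Max Cfsg.Agent.Class.Max.Fm Cfsg.Agent.Class Module Submodule

variable {F : Type u} {V : Type v} [Field F] [AddCommGroup V] [Module F V] [Finite F] [Finite V]
  {Q : QuadraticForm F V}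

omit [Finite V] in
theorem isO_fmQuad (hQ : Orth.ND Q) : IsO (fmQuad Q hQ) := ⟨fun _ => rfl, rfl, fun _ => rfl, rfl⟩

theorem mem_EG_fmQuad (hQ : Orth.ND Q) (h5 : 5 ≤ finrank F V) {g : Orth.OG Q} :
    g.1 ∈ (fmQuad Q hQ).EG ↔ g ∈ commutator (Orth.OG Q) := by
  rw [EG_fmQuad, hQ.commutator_eq_EG_of_five_le h5]
  exact Subgroup.mem_map_iff_mem Subtype.val_injective

theorem noRefl_fmQuad (hQ : Orth.ND Q) (h5 : 5 ≤ finrank F V) : NoRefl (fmQuad Q hQ) := by
  intro x hx h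
  have S := isO_fmQuad hQ
  have h2 : (2 : F) = 0 := by simpa [S.B_self, hx] using h
  have : CharP F 2 := CharTwo.of_one_ne_zero_of_two_eq_zero one_ne_zero h2
  refine ⟨fun y hy => ?_, fun g hg hv => ?_⟩
  · obtain ⟨a, ha⟩ := (Finite.injective_iff_surjective.1 (frobenius_inj F 2))
      ((fmQuad Q hQ).Q y / (fmQuad Q hQ).Q x)
    have key : ∀ b : F, (fmQuad Q hQ).Q (y - b • x) = 0 ↔ frobenius F 2 b = frobenius F 2 a := by
      intro b
      rw [Fm.Q_sub, Fm.smul, Fm.B_smul_right, Fm.perp_symm _ hy, mul_zero, map_zero, sub_zero, ha,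
        S.σ, frobenius_def, eq_div_iff hx, pow_two, CharTwo.add_eq_zero, eq_comm]
    exact ⟨a, (key a).2 rfl, fun b hb => frobenius_inj F 2 ((key b).1 hb)⟩
  have hg' : g ∈ Orth.OG Q := mem_Iso_fmQuad.1 (Fm.EG_le_Iso _ hg)
  have h3 := (Orth.mem_commutator_iff_even hQ (hQ.reflGen (Or.inr (by omega))) h2 ⟨g, hg'⟩).1
    ((mem_EG_fmQuad hQ h5).1 hg)
  have h4 : Orth.mov (⟨g, hg'⟩ : Orth.OG Q) ≤ span F {x} := by
    rintro _ ⟨v, rfl⟩
    obtain ⟨a, ha⟩ := hv v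
    exact mem_span_singleton.2 ⟨-a, by rw [neg_smul, ← ha, neg_sub]; rfl⟩
  have h6 := (Submodule.finrank_mono h4).trans (finrank_span_le_card {x})
  have h7 : Orth.mov (⟨g, hg'⟩ : Orth.OG Q) = ⊥ := Submodule.finrank_eq_zero.1 (by
    obtain ⟨k, hk⟩ := h3
    simp at h6
    omega)
  refine LinearEquiv.ext fun v => (sub_eq_zero.1 ?_).symm
  exact (Submodule.eq_bot_iff _).1 h7 _ ⟨v, rfl⟩

theorem mcard_Omega_eq (hQ : Orth.ND Q) (h5 : 5 ≤ finrank F V) :
    mcard (commutator (Orth.OG Q)) = mcard (fmQuad Q hQ).EG := by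
  rw [EG_fmQuad, ← hQ.commutator_eq_EG_of_five_le h5]
  exact mcard_congr (Subgroup.equivMapOfInjective _ _ Subtype.val_injective)

theorem mcard_Omega_le (hQ : Orth.ND Q) (h7 : 7 ≤ finrank F V)
    (h8 : Nat.card F ≤ 3 → 8 ≤ finrank F V)
    (hm : Nat.card F = 2 → finrank F V = 8 → ¬ QF.IsPlus Q) :
    mcard (commutator (Orth.OG Q)) ≤ 2 ∧ ((2 : F) = 0 → mcard (commutator (Orth.OG Q)) = 1) := by
  obtain ⟨p, hp⟩ := CharP.exists F
  have hp' := CharP.char_is_prime F p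
  have S := isO_fmQuad hQ
  have key : ¬ p ∣ mcard (fmQuad Q hQ).EG := by
    refine not_dvd_mcard_EG hp' (noRefl_fmQuad hQ (by omega)) fun Γ _ _ σ h5 h2 h4 e f he hf hef =>
      S.star' ⟨h2, h5, h4⟩ he hf hef h7 h8 fun c1 c2 u hu a ha b hb u' a' b' H => hm c1 c2 ?_
    obtain ⟨-, u1, u2⟩ := mem_hp.1 hu
    obtain ⟨-, a1, a2⟩ := mem_hp.1 ha
    obtain ⟨-, b1, b2⟩ := mem_hp.1 hb
    have li : LinearIndependent F ![e, u, a, b] := by
      rw [Fintype.linearIndependent_iff]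
      intro g hg
      rw [Fin.sum_univ_four] at hg
      have g0 := congrArg ((fmQuad Q hQ).B f) hg
      simp [u2, a2, b2, S.symm e f, hef] at g0
      have g1 := congrArg ((fmQuad Q hQ).B u') hg
      have g2 := congrArg ((fmQuad Q hQ).B a') hg
      have g3 := congrArg ((fmQuad Q hQ).B b') hg
      simp [g0, H.simp, S.ε] at g1 g2 g3
      intro i
      fin_cases i
      exacts [g0, g1, g2, g3]
    refine ⟨span F (Set.range ![e, u, a, b]), fun w hw => ?_, by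
      rw [finrank_span_eq_card li, c2]; rfl⟩
    obtain ⟨g, rfl⟩ := (Submodule.mem_span_range_iff_exists_fun F).1 hw
    change (fmQuad Q hQ).Q _ = 0
    simp [Fin.sum_univ_four, Fm.add, Fm.smul, he, u1, a1, b1, H.simp, H.q₁, H.q₂, H.q₃]
  rw [mcard_Omega_eq hQ (by omega)]
  exact ⟨S.pb.1.mcard_le hp' key, fun h2 => (S.pb.2 h2).mcard_eq_one hp' key⟩

end Cfsg.Agent.Mult
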