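import Cfsg.Agent.Mult.OMain
import Cfsg.Agent.Class.Orth.OmegaCrit

/-!
The spin cover of `Ω(Q)` in odd characteristic.
-/

set_option autoImplicit false

universe u v

namespace Cfsg.Agent.Mult

open CliffordAlgebra QuadraticMap Cfsg.Agent.Class Cfsg.Agent.Class.Orth Module
open scoped commutatorElement

variable {F : Type u} {V : Type v} [Field F] [AddCommGroup V] [Module F V] {Q : QuadraticForm F V}

theorem cl_anti {a b : V} (h : polar Q a b = 0) : ι Q a * ι Q b = -(ι Q b * ι Q a) :=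
  eq_neg_of_add_eq_zero_left (by rw [ι_mul_ι_add_swap, h, map_zero])

section centre

variable {α : Type*} [DecidableEq α] {b : α → V} (hb : ∀ i j, i ≠ j → polar Q (b i) (b j) = 0)
include hb

omit [DecidableEq α] in
theorem cl_twist {S : Finset α} {k : α} (hk : k ∉ S) {c : CliffordAlgebra Q}
    (hc : c ∈ Algebra.adjoin F ((fun i => ι Q (b i)) '' (S : Set α))) :
    involute c ∈ Algebra.adjoin F ((fun i => ι Q (b i)) '' (S : Set α)) ∧
      ι Q (b k) * c = involute c * ι Q (b k) := by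
  induction hc using Algebra.adjoin_induction with
  | mem x hx =>
    obtain ⟨i, hi, rfl⟩ := hx
    rw [involute_ι]
    exact ⟨neg_mem (Algebra.subset_adjoin ⟨i, hi, rfl⟩), by
      rw [cl_anti (hb k i (by rintro rfl; exact hk hi)), neg_mul]⟩
  | algebraMap r =>
    rw [AlgHom.commutes]
    exact ⟨Subalgebra.algebraMap_mem _ _, (Algebra.commutes _ _).symm⟩
  | add x y _ _ hx hy =>
    rw [map_add]
    exact ⟨add_mem hx.1 hy.1, by rw [mul_add, add_mul, hx.2, hy.2]⟩
  | mul x y _ _ hx hy =>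
    rw [map_mul]
    exact ⟨mul_mem hx.1 hy.1, by rw [← mul_assoc, hx.2, mul_assoc, hy.2, mul_assoc]⟩

theorem cl_decomp {S : Finset α} {k : α} (hk : k ∉ S) {x : CliffordAlgebra Q}
    (hx : x ∈ Algebra.adjoin F ((fun i => ι Q (b i)) '' ((insert k S : Finset α) : Set α))) :
    ∃ a ∈ Algebra.adjoin F ((fun i => ι Q (b i)) '' (S : Set α)),
      ∃ c ∈ Algebra.adjoin F ((fun i => ι Q (b i)) '' (S : Set α)), x = a + c * ι Q (b k) := by
  induction hx using Algebra.adjoin_induction with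
  | mem x hx =>
    obtain ⟨i, hi, rfl⟩ := hx
    rcases Finset.mem_insert.1 hi with rfl | hi
    · exact ⟨0, zero_mem _, 1, one_mem _, by simp⟩
    · exact ⟨_, Algebra.subset_adjoin ⟨i, hi, rfl⟩, 0, zero_mem _, by simp⟩
  | algebraMap r => exact ⟨_, Subalgebra.algebraMap_mem _ r, 0, zero_mem _, by simp⟩
  | add x y _ _ hx hy =>
    obtain ⟨a, ha, b, hb, rfl⟩ := hx
    obtain ⟨c, hc, d, hd, rfl⟩ := hy
    exact ⟨a + c, add_mem ha hc, b + d, add_mem hb hd, by noncomm_ring⟩
  | mul x y _ _ hx hy =>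
    obtain ⟨a, ha, e, he, rfl⟩ := hx
    obtain ⟨c, hc, d, hd, rfl⟩ := hy
    obtain ⟨c1, c2⟩ := cl_twist hb hk hc
    obtain ⟨d1, d2⟩ := cl_twist hb hk hd
    refine ⟨a * c + e * involute d * algebraMap F _ (Q (b k)), add_mem (mul_mem ha hc)
      (mul_mem (mul_mem he d1) (Subalgebra.algebraMap_mem _ _)),
      a * d + e * involute c, add_mem (mul_mem ha hd) (mul_mem he c1), ?_⟩
    calc (a + e * ι Q (b k)) * (c + d * ι Q (b k))
        = a * c + a * d * ι Q (b k) + e * (ι Q (b k) * c) + e * (ι Q (b k) * d) * ι Q (b k) := by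
          noncomm_ring
      _ = _ := by rw [c2, d2, ← ι_sq_scalar]; noncomm_ring

theorem cl_scalar_aux (h2 : (2 : F) ≠ 0) (hq : ∀ i, Q (b i) ≠ 0) (S : Finset α) :
    ∀ x ∈ Algebra.adjoin F ((fun i => ι Q (b i)) '' (S : Set α)),
      (∀ i ∈ S, involute x * ι Q (b i) = ι Q (b i) * x) → ∃ c, x = algebraMap F _ c := by
  induction S using Finset.induction with
  | empty =>
    intro x hx _
    simp only [Finset.coe_empty, Set.image_empty, Algebra.adjoin_empty, Algebra.mem_bot] at hx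
    obtain ⟨c, rfl⟩ := hx
    exact ⟨c, rfl⟩
  | insert k S hk ih =>
    intro x hx h
    obtain ⟨a, ha, c, hc, rfl⟩ := cl_decomp hb hk hx
    have h1 := h k (Finset.mem_insert_self _ _)
    rw [map_add, map_mul, involute_ι, mul_add, ← mul_assoc, (cl_twist hb hk ha).2,
      (cl_twist hb hk hc).2, add_mul, mul_neg, neg_mul, mul_assoc, ι_sq_scalar, add_right_inj,
      ← Algebra.commutes, ← Algebra.smul_def, neg_eq_iff_add_eq_zero, ← two_smul F, smul_smul,
      smul_eq_zero] at h1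
    have h3 : c = 0 := by
      rw [← involute_involute c, h1.resolve_left (mul_ne_zero h2 (hq k)), map_zero]
    subst h3
    simp only [zero_mul, add_zero] at h ⊢
    exact ih a ha fun i hi => h i (Finset.mem_insert_of_mem hi)

end centre

theorem exists_orth_basis [FiniteDimensional F V] (hQ : ND Q) (h2 : (2 : F) ≠ 0) :
    ∃ b : Basis (Fin (finrank F V)) F V, (∀ i j, i ≠ j → polar Q (b i) (b j) = 0) ∧
      ∀ i, Q (b i) ≠ 0 := by
  letI := invertibleOfNonzero h2
  obtain ⟨b, hb⟩ := LinearMap.BilinForm.exists_orthogonal_basis (B := polarBilin Q)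
    ⟨fun x y => polar_comm Q x y⟩
  refine ⟨b, fun i j h => hb h, fun i h => b.ne_zero i (hQ _ fun y => ?_)⟩
  rw [← b.sum_repr y, QF.polar_sum_right]
  refine Finset.sum_eq_zero fun j _ => ?_
  rw [polar_smul_right']
  by_cases hij : i = j
  · rw [← hij, polar_self', h, mul_zero, mul_zero]
  · rw [show polar Q (b i) (b j) = 0 from hb hij, mul_zero]

theorem cl_scalar [FiniteDimensional F V] (hQ : ND Q) (h2 : (2 : F) ≠ 0) {x : CliffordAlgebra Q}
    (h : ∀ v, involute x * ι Q v = ι Q v * x) : ∃ c, x = algebraMap F _ c := by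
  obtain ⟨b, h1, h3⟩ := exists_orth_basis hQ h2
  refine cl_scalar_aux h1 h2 h3 Finset.univ x ?_ fun i _ => h _
  refine SetLike.le_def.1 ?_ (Algebra.mem_top (x := x))
  rw [← adjoin_range_ι, Algebra.adjoin_le_iff]
  rintro _ ⟨v, rfl⟩
  rw [← b.sum_repr v, map_sum]
  exact Subalgebra.sum_mem _ fun i _ => by
    rw [map_smul]
    exact Subalgebra.smul_mem _ (Algebra.subset_adjoin
      (Set.mem_image_of_mem (fun i => ι Q (b i)) (by simp))) _

theorem cl_inj (hQ : ND Q) (h2 : (2 : F) ≠ 0) {v w : V} (h : ι Q v = ι Q w) : v = w := by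
  letI := invertibleOfNonzero h2
  refine sub_eq_zero.1 (hQ _ fun y => (algebraMap F (CliffordAlgebra Q)).injective ?_)
  rw [← ι_mul_ι_add_swap, map_sub, h]; simp

variable (Q) in
/-- The spin group. -/
def SpinG : Subgroup ((CliffordAlgebra Q)ˣ × commutator (OG Q)) where
  carrier := {p | (∀ v, involute (p.1 : CliffordAlgebra Q) * ι Q v = ι Q (p.2.1.1 v) * p.1) ∧
    reverse (p.1 : CliffordAlgebra Q) * p.1 = 1}
  one_mem' := ⟨fun v => by simp, by simp⟩
  mul_mem' {p q} hp hq := ⟨fun v => by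
    simp only [Prod.fst_mul, Units.val_mul, map_mul, Prod.snd_mul, Subgroup.coe_mul,
      LinearEquiv.mul_apply]
    rw [mul_assoc, hq.1, ← mul_assoc, hp.1, mul_assoc], by
    simp only [Prod.fst_mul, Units.val_mul, reverse.map_mul]
    rw [mul_assoc, ← mul_assoc _ (p.1 : CliffordAlgebra Q), hp.2, one_mul, hq.2]⟩
  inv_mem' {p} hp := by
    have e : involute ((p.1⁻¹ : (CliffordAlgebra Q)ˣ) : CliffordAlgebra Q) *
        involute (p.1 : CliffordAlgebra Q) = 1 := by rw [← map_mul, Units.inv_mul, map_one]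
    refine ⟨fun v => ?_, ?_⟩
    · have h := hp.1 ((p.2.1⁻¹).1 v)
      rw [OG.apply_inv_apply] at h
      rw [Prod.fst_inv, Units.eq_mul_inv_iff_mul_eq, mul_assoc, ← h, ← mul_assoc, e, one_mul]
      rfl
    · rw [Prod.fst_inv, Units.mul_inv_eq_one, ← Units.eq_inv_of_mul_eq_one_right hp.2,
        reverse_reverse]

variable (Q) in
/-- The vector representation of the spin group. -/
def spinProj : SpinG Q →* commutator (OG Q) := (MonoidHom.snd _ _).comp (SpinG Q).subtype

variable (Q) in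
/-- The central involution. -/
def spinNeg : SpinG Q := ⟨(-1, 1), fun v => by simp, by simp⟩

theorem spin_ext {g g' : SpinG Q} (h1 : (g.1.1 : CliffordAlgebra Q) = g'.1.1)
    (h2 : spinProj Q g = spinProj Q g') : g = g' := Subtype.ext (Prod.ext (Units.ext h1) h2)

theorem spinNeg_ne (h2 : (2 : F) ≠ 0) : spinNeg Q ≠ 1 := fun h => by
  letI := invertibleOfNonzero h2
  have h1 : (-1 : CliffordAlgebra Q) = 1 :=
    congrArg (fun p : SpinG Q => (p.1.1 : CliffordAlgebra Q)) h
  rw [neg_eq_iff_add_eq_zero, ← two_smul F, smul_eq_zero] at h1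
  exact h1.elim h2 one_ne_zero

theorem spinNeg_mem_center : spinNeg Q ∈ Subgroup.center (SpinG Q) :=
  Subgroup.mem_center_iff.2 fun g => Subtype.ext (Prod.ext (by simp [spinNeg]) (by simp [spinNeg]))

theorem mem_ker_spinProj [FiniteDimensional F V] (hQ : ND Q) (h2 : (2 : F) ≠ 0) {g : SpinG Q} :
    g ∈ (spinProj Q).ker ↔ g = 1 ∨ g = spinNeg Q := by
  refine ⟨fun h => ?_, by rintro (rfl | rfl); exacts [one_mem _, rfl]⟩
  letI := invertibleOfNonzero h2
  have h1 : g.1.2 = 1 := h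
  obtain ⟨c, hc⟩ := cl_scalar hQ h2 (x := g.1.1) fun v => by simpa [h1] using g.2.1 v
  have h3 := g.2.2
  rw [hc, reverse.commutes, ← map_mul, ← map_one (algebraMap F _),
    (algebraMap F _).injective.eq_iff, mul_self_eq_one_iff] at h3
  exact h3.imp (fun e => spin_ext (by simp [hc, e]) h) fun e =>
    spin_ext (by simp [hc, e, spinNeg]) h

theorem cl_refl {a : V} (ha : Q a ≠ 0) (v : V) :
    -ι Q a * ι Q v = ι Q ((refl Q a).1 v) * ι Q a := by
  rw [refl_apply, map_sub, map_smul, sub_mul, smul_mul_assoc, ι_sq_scalar, Algebra.smul_def,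
    ← map_mul (algebraMap F _), mul_comm _ (Q a), mul_inv_cancel_left₀ ha, ← ι_mul_ι_add_swap]
  noncomm_ring

theorem cl_list (L : List V) (hL : ∀ v ∈ L, Q v ≠ 0) :
    IsUnit (L.map (ι Q)).prod ∧
    (∀ v, involute (L.map (ι Q)).prod * ι Q v =
      ι Q ((L.map (refl Q)).prod.1 v) * (L.map (ι Q)).prod) ∧
    reverse (L.map (ι Q)).prod * (L.map (ι Q)).prod = algebraMap F _ (L.map fun v => Q v).prod := by
  induction L with
  | nil => simp
  | cons a L ih =>
    obtain ⟨h1, h2, h3⟩ := ih fun v hv => hL v (List.mem_cons_of_mem _ hv)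
    have ha := hL a List.mem_cons_self
    simp only [List.map_cons, List.prod_cons, map_mul, reverse.map_mul, involute_ι, reverse_ι]
    refine ⟨(isUnit_ι_of_isUnit Q ha.isUnit).mul h1, fun v => ?_, ?_⟩
    · rw [mul_assoc, h2, ← mul_assoc, cl_refl ha, mul_assoc]; rfl
    · rw [mul_assoc, ← mul_assoc (ι Q a), ι_sq_scalar, Algebra.commutes, ← mul_assoc, h3,
        Algebra.commutes]

variable [Finite F] [FiniteDimensional F V] (hQ : ND Q) (h2 : (2 : F) ≠ 0)
include hQ h2

theorem exists_spin_list (L : List V) (hL : ∀ v ∈ L, Q v ≠ 0)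
    (h : (L.map (refl Q)).prod ∈ commutator (OG Q)) :
    ∃ g : SpinG Q, ∃ s : F, (g.1.1 : CliffordAlgebra Q) = s • (L.map (ι Q)).prod ∧
      spinProj Q g = ⟨_, h⟩ := by
  obtain ⟨h1, h3, h4⟩ := cl_list L hL
  obtain ⟨-, s, hs⟩ := (list_refl_mem_commutator_iff hQ (hQ.reflGen_odd h2) L hL).1 h
  have s0 : s ≠ 0 := fun e => (spinor_list_refl hQ (hQ.reflGen_odd h2) L hL).1 (by simp [hs, e])
  obtain ⟨u, hu⟩ := ((inv_ne_zero s0).isUnit.map (algebraMap F (CliffordAlgebra Q))).mul h1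
  rw [← Algebra.smul_def] at hu
  refine ⟨⟨(u, ⟨_, h⟩), fun v => ?_, ?_⟩, s⁻¹, hu, rfl⟩
  · simp only [hu, map_smul, smul_mul_assoc, mul_smul_comm, h3]
  · simp only [hu, map_smul, smul_mul_assoc, mul_smul_comm, h4, hs]
    simp [Algebra.algebraMap_eq_smul_one, smul_smul, s0]

theorem spinProj_surjective : Function.Surjective (spinProj Q) := fun ⟨g, hg⟩ => by
  obtain ⟨L, hL, rfl⟩ : ∃ L : List V, (∀ v ∈ L, Q v ≠ 0) ∧ (L.map (refl Q)).prod = g :=
    (hQ.reflGen_odd h2).induction (p := fun g => ∃ L : List V, (∀ v ∈ L, Q v ≠ 0) ∧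
      (L.map (refl Q)).prod = g) ⟨[], by simp, rfl⟩ (fun v g hv ⟨L, hL, e⟩ =>
        ⟨v :: L, by simpa [hv] using hL, by simp [e]⟩) g
  obtain ⟨g, -, -, h⟩ := exists_spin_list hQ h2 L hL hg
  exact ⟨g, h⟩

theorem isStem_spinProj (h7 : 7 ≤ finrank F V) : IsStemExtension (spinProj Q) := by
  refine ⟨spinProj_surjective hQ h2, fun g hg => ?_, fun g hg => ?_⟩ <;>
    rcases (mem_ker_spinProj hQ h2).1 hg with rfl | rfl
  · exact one_mem _
  · exact spinNeg_mem_center
  · exact one_mem _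
  obtain ⟨e, -, e0, qe⟩ := (Max.fmQuad Q hQ).iso ⊤ (by rw [finrank_top]; change 3 ≤ _; omega)
  obtain ⟨f, -, e', -, f', -, e'', -, f'', -, H⟩ := (Max.fmQuad Q hQ).nd_top.exists_hyp3
    (by rw [finrank_top]; exact h7) trivial e0 qe
  have q : ∀ {x y}, (Max.fmQuad Q hQ).Q x = 0 → (Max.fmQuad Q hQ).Q y = 0 →
      (Max.fmQuad Q hQ).B x y = 1 → Q (x + y) = 1 := fun {x y} a b c => by
    rw [Q_add, show Q x = 0 from a, show Q y = 0 from b, show polar Q x y = 1 from c]; simp
  have qa := q H.q₁ H.r₁ H.h₁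
  have qb := q H.q₂ H.r₂ H.h₂
  have qc := q H.q₃ H.r₃ H.h₃
  have ab : polar Q (e + f) (e' + f') = 0 := by
    change (Max.fmQuad Q hQ).B _ _ = 0; simp [H.simp]
  have ac : polar Q (e + f) (e'' + f'') = 0 := by
    change (Max.fmQuad Q hQ).B _ _ = 0; simp [H.simp]
  have bc : polar Q (e' + f') (e'' + f'') = 0 := by
    change (Max.fmQuad Q hQ).B _ _ = 0; simp [H.simp]
  generalize e + f = a at *
  generalize e' + f' = b at *
  generalize e'' + f'' = c at *
  have l : ∀ x y, Q x = 1 → Q y = 1 → ∃ g : SpinG Q, ∃ s : F,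
      (g.1.1 : CliffordAlgebra Q) = s • (ι Q x * ι Q y) := fun x y hx hy => by
    obtain ⟨g, s, h, -⟩ := exists_spin_list hQ h2 [x, y] (by simp [hx, hy])
      ((list_refl_mem_commutator_iff hQ (hQ.reflGen_odd h2) _ (by simp [hx, hy])).2
        (by simp [hx, hy]))
    exact ⟨g, s, by simpa using h⟩
  obtain ⟨x, s, hx⟩ := l a b qa qb
  obtain ⟨y, t, hy⟩ := l a c qa qc
  have e1 : (x.1.1 : CliffordAlgebra Q) * y.1.1 = -(y.1.1 * x.1.1) := by
    simp only [hx, hy, smul_mul_assoc, mul_smul_comm, smul_smul, mul_comm s, ← smul_neg]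
    congr 1
    calc ι Q a * ι Q b * (ι Q a * ι Q c) = ι Q a * -(-(ι Q b * ι Q a)) * ι Q c := by noncomm_ring
      _ = -(ι Q a * ι Q a * (ι Q b * ι Q c)) := by rw [← cl_anti ab]; noncomm_ring
      _ = ι Q a * (ι Q a * ι Q c) * ι Q b := by rw [cl_anti bc]; noncomm_ring
      _ = _ := by
          conv_lhs => rw [cl_anti ac]
          noncomm_ring
  have e2 : (⁅x, y⁆.1.1 : CliffordAlgebra Q) = -1 := by
    simp only [commutatorElement_def, Subgroup.coe_mul, Subgroup.coe_inv, Prod.fst_mul,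
      Prod.fst_inv, Units.val_mul, e1]
    simp
  have e3 : ⁅x, y⁆ = spinNeg Q := spin_ext e2 (Subtype.ext (OG.ext fun v => by
    have := ⁅x, y⁆.2.1 v
    rw [e2] at this
    exact (cl_inj hQ h2 (show ι Q v = ι Q (⁅x, y⁆.1.2.1.1 v) by simpa using this)).symm))
  rw [← e3]
  exact Subgroup.commutator_mem_commutator trivial trivial

omit [Finite F] [FiniteDimensional F V] hQ h2 in
theorem cl_list_anti {a : V} (L : List V) (h : ∀ v ∈ L, polar Q a v = 0) :
    (L.map (ι Q)).prod * ι Q a = (-1 : F) ^ L.length • (ι Q a * (L.map (ι Q)).prod) ∧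
      (L.map (refl Q)).prod.1 a = a := by
  induction L with
  | nil => simp
  | cons b L ih =>
    obtain ⟨h1, h3⟩ := ih fun v hv => h v (List.mem_cons_of_mem _ hv)
    have hb := h b List.mem_cons_self
    simp only [List.map_cons, List.prod_cons, List.length_cons, OG.mul_apply, h3,
      refl_apply_of_polar_eq_zero hb, and_true]
    rw [mul_assoc, h1, ← mul_assoc, cl_anti hb, mul_smul_comm, pow_succ]
    simp [mul_assoc]

omit [Finite F] [FiniteDimensional F V] hQ h2 in
theorem cl_list_rev (L : List V) (hL : ∀ v ∈ L, Q v ≠ 0)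
    (h : L.Pairwise fun a b => polar Q a b = 0) :
    reverse (L.map (ι Q)).prod = (-1 : F) ^ L.length.choose 2 • (L.map (ι Q)).prod ∧
      ∀ a ∈ L, (L.map (refl Q)).prod.1 a = -a := by
  induction L with
  | nil => simp
  | cons b L ih =>
    obtain ⟨h0, h⟩ := List.pairwise_cons.1 h
    obtain ⟨h1, h3⟩ := ih (fun v hv => hL v (List.mem_cons_of_mem _ hv)) h
    obtain ⟨h4, h5⟩ := cl_list_anti L h0
    simp only [List.map_cons, List.prod_cons, List.length_cons, OG.mul_apply, reverse.map_mul,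
      reverse_ι]
    refine ⟨by rw [h1, smul_mul_assoc, h4, smul_smul, ← pow_add, Nat.choose_succ_succ' _ 1,
      Nat.choose_one_right, add_comm], fun a ha => ?_⟩
    rcases List.mem_cons.1 ha with rfl | ha
    · rw [h5, refl_apply_self (hL _ List.mem_cons_self)]
    · rw [h3 a ha, map_neg, refl_apply_of_polar_eq_zero ((polar_comm _ _ _).trans (h0 a ha))]

theorem exists_spin_negOne (h : negOne Q ∈ commutator (OG Q)) :
    ∃ g : SpinG Q, spinProj Q g = ⟨_, h⟩ ∧ g * g = spinNeg Q ^ (finrank F V).choose 2 := by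
  obtain ⟨b, h1, h3⟩ := exists_orth_basis hQ h2
  have hL : ∀ v ∈ List.ofFn b, Q v ≠ 0 := by simpa [List.mem_ofFn] using h3
  obtain ⟨h4, h5⟩ := cl_list_rev (List.ofFn b) hL (List.pairwise_ofFn.2 fun i j h => h1 i j h.ne)
  have e : ((List.ofFn b).map (refl Q)).prod = negOne Q := Subtype.ext (LinearEquiv.toLinearMap_injective
    (b.ext fun i => h5 _ (List.mem_ofFn.2 ⟨i, rfl⟩)))
  obtain ⟨g, s, hg, hg'⟩ := exists_spin_list hQ h2 _ hL (e ▸ h)
  have e' : spinProj Q g = ⟨_, h⟩ := hg'.trans (Subtype.ext e)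
  refine ⟨g, e', spin_ext ?_ ?_⟩
  · have := g.2.2
    rw [hg, map_smul, h4, smul_comm, ← hg, List.length_ofFn, smul_mul_assoc] at this
    rcases neg_one_pow_eq_or F ((finrank F V).choose 2) with c | c
    · have c' := (neg_one_pow_eq_one_iff_even (fun c => h2 (by linear_combination -c))).1 c
      simpa [c, spinNeg, c'.neg_one_pow] using this
    · have c' := (neg_one_pow_eq_neg_one_iff_odd (fun c => h2 (by linear_combination -c))).1 c
      simpa [c, spinNeg, c'.neg_one_pow, neg_eq_iff_eq_neg] using this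
  · rw [map_mul, map_pow, e', show spinProj Q (spinNeg Q) = 1 from rfl, one_pow]
    exact Subtype.ext negOne_mul_self

end Cfsg.Agent.Mult
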