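import Cfsg.Agent.Mult.SporGen
import Cfsg.Prelude.Def_Spor_HN

/-!
Central extensions of a group generated as in the presentation of the Harada–Norton group: if the
subgroup of index two in `⟨x, y, z⟩` lifts, all relators lift.
-/

set_option autoImplicit false

namespace Cfsg.Agent.Mult.HNm

open Cfsg Cfsg.Agent.FGS
open scoped commutatorElement

variable {Γ G : Type*} [Group Γ] [Group G]

theorem pow_four {x y : G} (h2 : x ^ 2 * y * x ^ 2 * y⁻¹ = 1)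
    (h4 : (x⁻¹ * y ^ 2 * x * y ^ 3) ^ 3 = 1) : (x ^ 2)⁻¹ = x ^ 2 := by
  have a : SemiconjBy y (x ^ 2) (x ^ 2)⁻¹ := by
    change y * x ^ 2 = (x ^ 2)⁻¹ * y
    calc y * x ^ 2 = (x ^ 2)⁻¹ * (x ^ 2 * y * x ^ 2 * y⁻¹) * y := by group
      _ = _ := by rw [h2, mul_one]
  have b : SemiconjBy y (x ^ 2)⁻¹ (x ^ 2) := by simpa using a.inv_right
  have c : SemiconjBy x (x ^ 2) (x ^ 2) := Commute.self_pow x 2
  have d : SemiconjBy x (x ^ 2)⁻¹ (x ^ 2)⁻¹ := c.inv_right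
  have c' : SemiconjBy x⁻¹ (x ^ 2) (x ^ 2) := (Commute.self_pow x 2).inv_left
  have d' : SemiconjBy x⁻¹ (x ^ 2)⁻¹ (x ^ 2)⁻¹ := c'.inv_right
  have e : SemiconjBy (x⁻¹ * y ^ 2 * x * y ^ 3) (x ^ 2) (x ^ 2)⁻¹ := by
    rw [pow_two y, pow_three y]
    exact ((d'.mul_left (a.mul_left b)).mul_left d).mul_left (a.mul_left (b.mul_left a))
  have f : SemiconjBy (x⁻¹ * y ^ 2 * x * y ^ 3) (x ^ 2)⁻¹ (x ^ 2) := by simpa using e.inv_right
  have g := e.mul_left (f.mul_left e)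
  rw [← pow_three, h4] at g
  simpa using g.eq.symm

theorem adjT {A : Subgroup Γ} (hA : A ≤ Subgroup.center Γ) {X t : Γ} (h1 : t ^ 5 ∈ A)
    (h2 : X⁻¹ * t * X * t ^ 2 ∈ A) :
    ∃ c ∈ A, (t * c) ^ 5 = 1 ∧ X⁻¹ * (t * c) * X * (t * c) ^ 2 = 1 := by
  have cm : ∀ a ∈ A, ∀ g, Commute g a := fun a ha g => Subgroup.mem_center_iff.1 (hA ha) g
  generalize ha : t ^ 5 = a at h1
  generalize hb : X⁻¹ * t * X * t ^ 2 = b at h2
  have h3 : a ^ 3 = b ^ 5 := by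
    have e1 : X⁻¹ * t * X = b * (t ^ 2)⁻¹ := by rw [← hb]; group
    have e2 : (X⁻¹ * t * X) ^ 5 = a := by
      have : (X⁻¹ * t * X) ^ 5 = X⁻¹ * t ^ 5 * X := by simpa using conj_pow (a := X⁻¹) (b := t) (i := 5)
      rw [this, ha, (cm a h1 X⁻¹).eq, inv_mul_cancel_right]
    rw [e1, (cm b h2 _).symm.mul_pow, inv_pow, ← pow_mul, mul_comm 2 5, pow_mul, ha] at e2
    rw [eq_mul_of_mul_inv_eq e2]
    group
  have hc : b⁻¹ ^ 2 * a ∈ A := mul_mem (pow_mem (inv_mem h2) 2) h1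
  have hba : Commute (b⁻¹ ^ 2) a := cm a h1 _
  refine ⟨_, hc, ?_, ?_⟩
  · rw [(cm _ hc t).mul_pow, ha, hba.mul_pow]
    calc a * ((b⁻¹ ^ 2) ^ 5 * a ^ 5) = a * (((b ^ 5) ^ 2)⁻¹ * a ^ 5) := by group
      _ = 1 := by rw [← h3]; group
  · generalize hc' : b⁻¹ ^ 2 * a = c at hc
    have e3 : c ^ 3 = b⁻¹ := by
      rw [← hc', hba.mul_pow, h3]; group
    rw [(cm _ hc t).mul_pow]
    calc X⁻¹ * (t * c) * X * (t ^ 2 * c ^ 2) = X⁻¹ * t * (c * (X * t ^ 2)) * c ^ 2 := by group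
      _ = X⁻¹ * t * X * t ^ 2 * c ^ 3 := by rw [← (cm _ hc (X * t ^ 2)).eq]; group
      _ = 1 := by rw [hb, e3, mul_inv_cancel]

theorem adjZ {A : Subgroup Γ} (hA : A ≤ Subgroup.center Γ) {w z T : Γ} (h0 : z ^ 2 ∈ A)
    (h4 : (z * T) ^ 3 ∈ A) (hz : w * z * w⁻¹ = z) (hT : w * T * w⁻¹ = T⁻¹) :
    ∃ d ∈ A, (z * d) ^ 2 = 1 ∧ (z * d * T) ^ 3 = 1 := by
  have cm : ∀ a ∈ A, ∀ g, Commute g a := fun a ha g => Subgroup.mem_center_iff.1 (hA ha) g
  generalize ha : z ^ 2 = a at h0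
  generalize hb : (z * T) ^ 3 = b at h4
  have e1 : (z * T⁻¹) ^ 3 = b := by
    have : w * (z * T) * w⁻¹ = z * T⁻¹ := by
      rw [← hT]; nth_rewrite 2 [← hz]; group
    rw [← this, conj_pow, hb, (cm b h4 w).eq, mul_inv_cancel_right]
  have e2 : (T⁻¹ * z) ^ 3 = b := by
    have : T⁻¹ * z = z⁻¹ * (z * T⁻¹) * z⁻¹⁻¹ := by group
    rw [this, conj_pow, e1, (cm b h4 z⁻¹).eq, mul_inv_cancel_right]
  have h3 : b ^ 2 = a ^ 3 := by
    have : (z * T)⁻¹ = T⁻¹ * z * a⁻¹ := by rw [← ha]; group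
    have e3 : b⁻¹ = b * a⁻¹ ^ 3 := by
      rw [← hb, ← inv_pow, this, (cm _ (inv_mem h0) _).mul_pow, e2, hb]
    calc b ^ 2 = b * (b * a⁻¹ ^ 3) * a ^ 3 := by rw [pow_two b]; group
      _ = a ^ 3 := by rw [← e3]; group
  have hd : b⁻¹ * a ∈ A := mul_mem (inv_mem h4) h0
  have hba : Commute b⁻¹ a := cm a h0 _
  refine ⟨_, hd, ?_, ?_⟩
  · rw [(cm _ hd z).mul_pow, ha, hba.mul_pow, inv_pow, h3]; group
  · rw [mul_assoc, ← (cm _ hd T).eq, ← mul_assoc, (cm _ hd _).mul_pow, hb, hba.mul_pow, ← h3]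
    group

/-- The relators not involving `t`. -/
def RelH (x y z : G) : Prop :=
  y ^ 6 = 1 ∧ x ^ 2 * y * x ^ 2 * y⁻¹ = 1 ∧ (x⁻¹ * y⁻¹ * x * y) ^ 3 = 1 ∧
  (x⁻¹ * y ^ 2 * x * y ^ 3) ^ 3 = 1 ∧ (x * y) ^ 8 = 1 ∧ (x * y * x * y ^ 3) ^ 4 = 1 ∧
  z ^ 2 = 1 ∧ (z * x) ^ 2 = 1 ∧
  z⁻¹ * (y * x * y * x * y ^ 2 * x * y⁻¹)⁻¹ * z * (y * x * y * x * y ^ 2 * x * y⁻¹) *
    (x ^ 2)⁻¹ = 1 ∧
  z * ((y ^ 3 * x * y * x * y)⁻¹ * z * (y ^ 3 * x * y * x * y) * x) ^ 3 = 1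

/-- The relators involving `t`. -/
def RelT (x y z t : G) : Prop :=
  t ^ 5 = 1 ∧ x⁻¹ * t * x * t ^ 2 = 1 ∧ t⁻¹ * y⁻¹ * t * y = 1 ∧ (z * t) ^ 3 = 1

theorem rel_iff (f : FreeGroup Spor.HN.Gen →* G) :
    (∀ r ∈ Spor.HN.extra, f r = 1) ↔
      RelH (f Spor.HN.x) (f Spor.HN.y) (f Spor.HN.z) ∧
        RelT (f Spor.HN.x) (f Spor.HN.y) (f Spor.HN.z) (f Spor.HN.t) := by
  simp only [Spor.HN.extra, List.mem_cons, List.not_mem_nil, or_false, forall_eq_or_imp, forall_eq,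
    map_mul, map_pow, map_inv, RelH, RelT, and_assoc]

theorem RelH.of_inf {σ : Γ →* G} {L : Subgroup Γ} (hL : ∀ g ∈ L, σ g = 1 → g = 1) {X Y Z : Γ}
    (hX : X ∈ L) (hY : Y ∈ L) (hZ : Z ∈ L) (h : RelH (σ X) (σ Y) (σ Z)) : RelH X Y Z := by
  obtain ⟨h1, h2, h3, h4, h5, h6, h7, h8, h9, h10⟩ := h
  refine ⟨?_, ?_, ?_, ?_, ?_, ?_, ?_, ?_, ?_, ?_⟩ <;>
  · refine hL _ ?_ (by simp only [map_mul, map_pow, map_inv]; assumption)
    repeat first | assumption | apply mul_mem | apply inv_mem | apply pow_mem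

theorem mem_of_index_two {x y z : G} (h : RelH x y z) {K : Subgroup G} (hi : K.index = 2) :
    x ∈ K ∧ y ∈ K := by
  obtain ⟨-, -, -, h4, -, -, -, -, -, h10⟩ := h
  have a := h4 ▸ K.one_mem
  have b := h10 ▸ K.one_mem
  simp only [pow_succ, pow_zero, one_mul, Subgroup.mul_mem_iff_of_index_two hi, inv_mem_iff] at a b
  tauto

/-- All relators lift once the index two subgroup of `⟨x, y, z⟩` lifts. -/
theorem exists_lifts {σ : Γ →* G} (hs : Function.Surjective σ)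
    (hc : σ.ker ≤ Subgroup.center Γ) {N : Type*} [Group N] {ι : N →* G}
    (hι : Function.Injective ι) {x y z : N} {t : G} (hH : RelH x y z)
    (hT : RelT (ι x) (ι y) (ι z) t) (hN : Subgroup.closure {x, y, z} = ⊤)
    (K : Subgroup N) [hn : K.Normal] (hi : K.index = 2) (hK : commutator K = ⊤) (ψ : K →* Γ)
    (hψ : σ.comp ψ = ι.comp K.subtype) :
    ∃ X Y Z T, σ X = ι x ∧ σ Y = ι y ∧ σ Z = ι z ∧ σ T = t ∧ RelH X Y Z ∧ RelT X Y Z T := by
  obtain ⟨hx, hy⟩ := mem_of_index_two hH hi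
  have hz : z ∉ K := fun hz => by
    have : K = ⊤ := by
      rw [eq_top_iff, ← hN, Subgroup.closure_le]
      rintro _ (rfl | rfl | rfl) <;> assumption
    rw [this, Subgroup.index_top] at hi
    exact absurd hi (by decide)
  have hψ' : ∀ k, σ (ψ k) = ι k := fun k => DFunLike.congr_fun hψ k
  have cj : ∀ Z, σ Z = ι z → ∀ k : K, Z * ψ k * Z⁻¹ = ψ ⟨z * k * z⁻¹, hn.conj_mem _ k.2 z⟩ := by
    intro Z hZ k
    refine eq_on_commutator_of_comp_eq hc (η := (MulAut.conj Z).toMonoidHom.comp ψ)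
      (η' := ψ.comp (MulAut.conjNormal z : MulAut K).toMonoidHom) ?_ (hK ▸ Subgroup.mem_top k)
    ext k
    simp [hψ', hZ]
  obtain ⟨h1, h2, h3, h4, h5, h6, h7, h8, h9, h10⟩ := id hH
  obtain ⟨t1, t2, t3, t4⟩ := hT
  set X := ψ ⟨x, hx⟩
  set Y := ψ ⟨y, hy⟩
  have eX : σ X = ι x := hψ' _
  have eY : σ Y = ι y := hψ' _
  have hw : (x ^ 2)⁻¹ = x ^ 2 := pow_four h2 h4
  have hW : (X ^ 2)⁻¹ = X ^ 2 := by
    rw [← map_pow, ← map_inv]
    exact congrArg ψ (Subtype.ext hw)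
  have hY : Y ^ 6 = 1 := by
    rw [← map_pow, ← map_one ψ]
    exact congrArg ψ (Subtype.ext h1)
  obtain ⟨t', ht'⟩ := hs t
  obtain ⟨c, hc1, T1, T2⟩ := adjT hc (X := X) (t := t') (by simpa [ht'] using t1)
    (by simpa [ht', eX] using t2)
  have eT : σ (t' * c) = t := by rw [map_mul, ht', hc1, mul_one]
  generalize t' * c = T at T1 T2 eT
  have T3 : T⁻¹ * Y⁻¹ * T * Y = 1 := by
    have c1 : Commute (σ T) (σ Y) := by
      rw [eT, eY]
      change t * ι y = ι y * t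
      calc t * ι y = ι y * t * (t⁻¹ * (ι y)⁻¹ * t * ι y) := by group
        _ = _ := by rw [t3, mul_one]
    have e1 := commutator_pow_left_of_commute hc c1 5
    have e2 := commutator_pow_left_of_commute hc c1.symm 6
    rw [T1, commutatorElement_one_left] at e1
    rw [hY, commutatorElement_one_left, ← commutatorElement_inv, inv_pow, eq_comm, inv_eq_one,
      pow_succ, ← e1, one_mul, commutatorElement_eq_one_iff_mul_comm] at e2
    calc T⁻¹ * Y⁻¹ * T * Y = T⁻¹ * Y⁻¹ * (T * Y) := by group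
      _ = 1 := by rw [e2]; group
  obtain ⟨z', hz'⟩ := hs (ι z)
  have zx : z * x ^ 2 * z⁻¹ = x ^ 2 := by
    have e1 : z⁻¹ = z := inv_eq_of_mul_eq_one_right (by rw [← pow_two, h7])
    have e2 : z * x * z⁻¹ = x⁻¹ := by
      rw [e1]
      exact eq_inv_of_mul_eq_one_left (by rw [← h8, pow_two, mul_assoc (z * x)])
    rw [← conj_pow, e2, inv_pow, hw]
  obtain ⟨d, hd, Z1, Z2⟩ := adjZ hc (w := X ^ 2) (z := z') (T := T)
    (by rw [MonoidHom.mem_ker, map_pow, hz', ← map_pow, h7, map_one])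
    (by simpa [hz', eT] using t4)
    (by
      have := cj z' hz' (⟨x, hx⟩ ^ 2)
      rw [show (⟨_, hn.conj_mem _ (⟨x, hx⟩ ^ 2 : K).2 z⟩ : K) = ⟨x, hx⟩ ^ 2 from Subtype.ext zx,
        map_pow] at this
      calc X ^ 2 * z' * (X ^ 2)⁻¹ = z' * X ^ 2 * z'⁻¹ * z' * (X ^ 2)⁻¹ := by rw [this]
        _ = z' := by group)
    (by
      have e1 : X⁻¹ * T * X = (T ^ 2)⁻¹ := eq_inv_of_mul_eq_one_left T2
      have e2 : X⁻¹ * T ^ 2 * X = ((T ^ 2)⁻¹) ^ 2 := by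
        rw [← e1]
        simpa using (conj_pow (a := X⁻¹) (b := T) (i := 2)).symm
      calc X ^ 2 * T * (X ^ 2)⁻¹ = (X ^ 2)⁻¹ * T * X ^ 2 := by rw [hW]
        _ = X⁻¹ * (X⁻¹ * T * X) * X := by rw [pow_two X]; group
        _ = (X⁻¹ * T ^ 2 * X)⁻¹ := by rw [e1]; group
        _ = T ^ 5 * T⁻¹ := by rw [e2]; group
        _ = T⁻¹ := by rw [T1, one_mul])
  have eZ : σ (z' * d) = ι z := by rw [map_mul, hz', hd, mul_one]
  generalize z' * d = Z at Z1 Z2 eZ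
  have iZ : Z⁻¹ = Z := inv_eq_of_mul_eq_one_right (by rw [← pow_two, Z1])
  let L : Subgroup Γ :=
    { carrier := {g | ∃ k, g = ψ k ∨ g = ψ k * Z}
      one_mem' := ⟨1, Or.inl (map_one ψ).symm⟩
      mul_mem' := by
        rintro _ _ ⟨k, rfl | rfl⟩ ⟨l, rfl | rfl⟩
        · exact ⟨k * l, Or.inl (map_mul ψ k l).symm⟩
        · exact ⟨k * l, Or.inr (by rw [map_mul, mul_assoc])⟩
        · exact ⟨k * _, Or.inr (by rw [map_mul, ← cj Z eZ l]; group)⟩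
        · exact ⟨k * _, Or.inl (by rw [map_mul, ← cj Z eZ l, iZ]; group)⟩
      inv_mem' := by
        rintro _ ⟨k, rfl | rfl⟩
        · exact ⟨k⁻¹, Or.inl (map_inv ψ k).symm⟩
        · exact ⟨_, Or.inr (by rw [← cj Z eZ k⁻¹, map_inv, mul_inv_rev, inv_mul_cancel_right, iZ])⟩ }
  refine ⟨X, Y, Z, T, eX, eY, eZ, eT, RelH.of_inf (σ := σ) (L := L) ?_ ⟨_, Or.inl rfl⟩
    ⟨_, Or.inl rfl⟩ ⟨1, Or.inr (by simp)⟩ ?_, T1, T2, T3, Z2⟩
  · rintro _ ⟨k, rfl | rfl⟩ e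
    · rw [hψ', ← map_one ι] at e
      rw [show k = 1 from Subtype.ext (hι e), map_one]
    · rw [map_mul, hψ', eZ, ← map_mul, ← map_one ι] at e
      exact absurd (eq_inv_of_mul_eq_one_right (hι e) ▸ inv_mem k.2) hz
  · rw [eX, eY, eZ]
    refine ⟨?_, ?_, ?_, ?_, ?_, ?_, ?_, ?_, ?_, ?_⟩ <;>
    · simp only [← map_mul, ← map_pow, ← map_inv]
      exact (congrArg ι (by assumption)).trans (map_one ι)

open Spor in
/-- The multiplier of the presented group is trivial once the index two subgroup of `⟨x, y, z⟩` is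
perfect with trivial multiplier. -/
theorem trivial [Finite HN]
    (K : Subgroup ((Subgroup.closure ({HN.x, HN.y, HN.z} : Set (FreeGroup HN.Gen))).map
      (PresentedGroup.mk (coxRelators HN.edges ∪ {r | r ∈ HN.extra})))) [K.Normal]
    (hi : K.index = 2) (hK : commutator K = ⊤) (h1 : mcard K = 1) :
    HasCyclicSchurMultiplier HN 1 := by
  refine trivial_multiplier_of_forall_ker_eq_bot fun Δ _ _ σ hσ => ?_
  obtain ⟨ψ, hψ⟩ := Cov.exists_lift hK h1 hσ.2.1 ((Subgroup.subtype _).comp K.subtype)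
    (fun g _ => hσ.1 g)
  obtain ⟨hH, hT⟩ := (rel_iff (PresentedGroup.mk (coxRelators HN.edges ∪ {r | r ∈ HN.extra}))).1
    fun r hr => PresentedGroup.one_of_mem (Or.inr hr)
  have m : ∀ w ∈ ({HN.x, HN.y, HN.z} : Set (FreeGroup HN.Gen)), PresentedGroup.mk _ w ∈
      (Subgroup.closure ({HN.x, HN.y, HN.z} : Set (FreeGroup HN.Gen))).map
      (PresentedGroup.mk (coxRelators HN.edges ∪ {r | r ∈ HN.extra})) := fun w hw =>
    Subgroup.mem_map_of_mem _ (Subgroup.subset_closure hw)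
  obtain ⟨X, Y, Z, T, eX, eY, eZ, eT, hH', hT'⟩ := exists_lifts hσ.1 hσ.2.1
    (Subgroup.subtype_injective _) (x := ⟨_, m HN.x (by simp)⟩) (y := ⟨_, m HN.y (by simp)⟩)
    (z := ⟨_, m HN.z (by simp)⟩)
    (RelH.of_inf (σ := Subgroup.subtype _) (L := ⊤) (fun g _ h => Subtype.ext h)
      (Subgroup.mem_top _) (Subgroup.mem_top _) (Subgroup.mem_top _) hH) hT
    (by
      apply Subgroup.map_injective (Subgroup.subtype_injective _)
      rw [← MonoidHom.range_eq_map, Subgroup.range_subtype, MonoidHom.map_closure]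
      refine Eq.trans ?_ (MonoidHom.map_closure _ _).symm
      simp only [Set.image_insert_eq, Set.image_singleton]
      rfl) K hi hK ψ hψ
  let f : HN.Gen → Δ := fun | .x => X | .y => Y | .z => Z | .t => T
  have hf : ∀ r ∈ coxRelators HN.edges ∪ {r | r ∈ HN.extra}, FreeGroup.lift f r = 1 := by
    rintro r (⟨a, ha, -⟩ | hr)
    · simp [coxNodes, HN.edges] at ha
    · refine (rel_iff (FreeGroup.lift f)).2 ?_ r hr
      simp only [FreeGroup.lift_apply_of]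
      exact ⟨hH', hT'⟩
  refine Cov.ker_eq_bot_of_section hσ (s := PresentedGroup.toGroup hf) ?_
  refine PresentedGroup.ext fun a => ?_
  rw [MonoidHom.comp_apply, PresentedGroup.toGroup.of]
  cases a <;> assumption

end Cfsg.Agent.Mult.HNm
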