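import Cfsg.Agent.Mult.FmSec2
import Cfsg.Agent.Mult.Finish

/-!
The `p`-part of the multiplier of the orthogonal groups.
-/

set_option autoImplicit false

namespace Cfsg.Agent.Mult

open Cfsg.Agent.Class.Max Cfsg.Agent.Class.Max.Fm Cfsg.Agent.RootSub Module Submodule
open scoped commutatorElement

variable {F V : Type*} [Field F] [AddCommGroup V] [Module F V] {Φ : Fm F V}
variable {Γ : Type*} [Group Γ] {σ : Γ →* (V ≃ₗ[F] V)} {p : ℕ}

namespace Hyp2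

variable {x x' y y' v : V} (h : Hyp2 Φ x x' y y')
include h

theorem w_fix (h1 : Φ.B x v = 0) (h2 : Φ.B x' v = 0) (h3 : Φ.B y v = 0) (h4 : Φ.B y' v = 0)
    (t : F) : StRel.w h.rx h.symm.rx t v = v :=
  h.w_mem (M := fixing {v}) (fun t w hw => by rw [hw, h.rx_apply]; simp [h1, h4])
    (fun t w hw => by rw [hw, h.symm.rx_apply]; simp [h2, h3]) t v rfl

theorem h_fix (h1 : Φ.B x v = 0) (h2 : Φ.B x' v = 0) (h3 : Φ.B y v = 0) (h4 : Φ.B y' v = 0)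
    (t : F) : StRel.h h.rx h.symm.rx t v = v :=
  h.h_mem (M := fixing {v}) (fun t w hw => by rw [hw, h.rx_apply]; simp [h1, h4])
    (fun t w hw => by rw [hw, h.symm.rx_apply]; simp [h2, h3]) t v rfl

theorem w_EG (t : F) : StRel.w h.rx h.symm.rx t ∈ Φ.EG :=
  h.w_mem (fun t => (h.isE t).mem_EG) (fun t => (h.symm.isE t).mem_EG) t

theorem h_EG (t : F) : StRel.h h.rx h.symm.rx t ∈ Φ.EG :=
  h.h_mem (fun t => (h.isE t).mem_EG) (fun t => (h.symm.isE t).mem_EG) t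

end Hyp2

variable (Φ) in
/-- The formed space is orthogonal. -/
structure IsO : Prop where
  σ : ∀ a, Φ.σ a = a
  ε : Φ.ε = 1
  π : ∀ c, Φ.π c = c
  d : Φ.d = 3

namespace IsO

variable (S : IsO Φ)
include S

theorem symm (x y : V) : Φ.B y x = Φ.B x y := by rw [Φ.symm, S.ε, S.σ, one_mul]

theorem lamC : LamC Φ := fun c hc => ⟨0, by rw [S.π] at hc; simp [hc]⟩

theorem center (M : Subgroup (V ≃ₗ[F] V)) (a : V) (c : F) (hc : Φ.π c = 0) : Φ.HasE M a 0 c := by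
  rw [S.π] at hc; rw [hc]; exact hasE_zero a

theorem mem_of_inA {M : Subgroup (V ≃ₗ[F] V)} {a w : V} {c : F} {g : V ≃ₗ[F] V}
    (hg : IsE Φ a w c g) (h : Φ.InA M a w) : g ∈ M :=
  hg.mem_of_hasE (h.hasE (S.center M a) hg.valid)

theorem exists_rot [Finite V] (hd : 5 ≤ finrank F V) {Y : Submodule F V} (hY : Φ.ND Y)
    (h2 : finrank F Y = 2) (ha : ∀ y ∈ Y, Φ.Q y = 0 → y = 0) :
    ∃ k ∈ Φ.EG, (∀ v, (∀ y ∈ Y, Φ.B y v = 0) → k v = v) ∧ ∀ w ∈ Y, ∃ y ∈ Y, k y - y = w := by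
  obtain ⟨x, hx, x0⟩ := Submodule.exists_mem_ne_zero_of_ne_bot (p := Y) (by
    rintro rfl; simp at h2)
  have hlt : ¬ Y ≤ span F {x} := fun h => by
    have := Submodule.finrank_mono h
    rw [finrank_span_singleton x0] at this; omega
  obtain ⟨z, hz, z1, z2⟩ : ∃ z ∈ Y, z ∉ span F {x} ∧ Φ.B z x ≠ 0 := by
    obtain ⟨z₀, hz₀, n⟩ := SetLike.not_le_iff_exists.1 hlt
    obtain ⟨z₁, hz₁, n₁⟩ := hY.exists_ne hx x0
    by_cases c : Φ.B z₀ x = 0
    · by_cases c' : z₁ ∈ span F {x}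
      · exact ⟨z₀ + z₁, Y.add_mem hz₀ hz₁, fun h => n (by simpa using sub_mem h c'),
          by simpa [c] using Φ.ne_symm n₁⟩
      · exact ⟨z₁, hz₁, c', Φ.ne_symm n₁⟩
    · exact ⟨z₀, hz₀, n, c⟩
  have qx : Φ.Q x ≠ 0 := fun c => x0 (ha x hx c)
  have qz : Φ.Q z ≠ 0 := fun c => z1 (ha z hz c ▸ zero_mem _)
  have hyI := refl_mem_Iso qz (S.π _)
  have y1 : refl qz (S.π _) x ∈ Y := Y.sub_mem hx (Y.smul_mem _ hz)
  have y2 : refl qz (S.π _) x ∉ span F {x} := fun h => z1 (by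
    have := smul_mem _ ((Φ.Q z)⁻¹ * Φ.B z x)⁻¹ (sub_mem (mem_span_singleton_self x) h)
    rwa [refl_apply, sub_sub_cancel, smul_smul, inv_mul_cancel₀ (mul_ne_zero (inv_ne_zero qz) z2),
      one_smul] at this)
  have y3 := Iso.Q hyI x
  generalize refl qz (S.π _) x = y at *
  have hsp : span F {x, y} = Y := by
    refine Submodule.eq_of_le_of_finrank_eq (span_le.2 (by
      rintro _ (rfl | rfl); exacts [hx, y1])) ?_
    have : LinearIndependent F ![x, y] := (LinearIndependent.pair_iff' x0).2 fun a h =>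
      y2 (mem_span_singleton.2 ⟨a, h⟩)
    have := finrank_span_eq_card this
    rw [Matrix.range_cons_cons_empty, Fintype.card_fin] at this
    exact this.trans h2.symm
  have hk := refl_mul_inv_mem_EG (by rw [S.d]; omega) qx (S.π _) ((S.π _).trans y3.symm) x0
    (fun c => y2 (c ▸ zero_mem _))
  refine ⟨_, hk, fun v hv => by simp [mul_app, refl_apply, refl_inv_apply, hv x hx, hv y y1], ?_⟩
  set k := refl qx (S.π _) * (refl qx ((S.π _).trans y3.symm))⁻¹ with hkd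
  have hkY : ∀ v ∈ Y, k v - v ∈ Y := fun v hv => by
    rw [hkd, mul_app, refl_inv_apply, refl_apply]
    exact Y.sub_mem (Y.sub_mem (Y.sub_mem hv (Y.smul_mem _ y1)) (Y.smul_mem _ hx)) hv
  have hinj : ∀ v ∈ Y, k v - v = 0 → v = 0 := fun v hv h => by
    rw [sub_eq_zero, hkd, mul_app, ← LinearEquiv.eq_symm_apply, ← inv_app, refl_inv_apply,
      refl_inv_apply, sub_right_inj, S.ε, S.σ, one_mul] at h
    have c1 : Φ.B y v = 0 := by
      by_contra c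
      refine y2 (mem_span_singleton.2 ⟨((Φ.Q x)⁻¹ * Φ.B y v)⁻¹ * ((Φ.Q x)⁻¹ * Φ.B x v), ?_⟩)
      rw [← smul_smul, ← h, smul_smul, inv_mul_cancel₀ (mul_ne_zero (inv_ne_zero qx) c), one_smul]
    rw [c1, mul_zero, zero_smul, eq_comm, smul_eq_zero, mul_eq_zero, inv_eq_zero] at h
    have c2 := (h.resolve_right x0).resolve_left qx
    refine hY v hv fun z hz => Φ.perp_symm ?_
    obtain ⟨a, b, rfl⟩ := mem_span_pair.1 (hsp.ge hz)
    simp [c1, c2]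
  have := Finite.injective_iff_surjective.1 (show Function.Injective
    (fun v : Y => (⟨k v - v, hkY v v.2⟩ : Y)) from fun v v' h => Subtype.ext (sub_eq_zero.1
      (hinj _ (Y.sub_mem v.2 v'.2) (by
        have := congrArg Subtype.val h
        simp only at this
        rw [map_sub]; linear_combination (norm := module) this))))
  intro w hw
  obtain ⟨y, hy⟩ := this ⟨w, hw⟩
  exact ⟨y, y.2, congrArg Subtype.val hy⟩

variable [Finite F] [Finite V] [Finite Γ] [CharP F p] (h : CExt Φ σ p) {e f : V} (he : Φ.Q e = 0)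
  (hf : Φ.Q f = 0) (hef : Φ.B e f = 1) (h7 : 7 ≤ finrank F V)
include h he hf hef h7

theorem rig (h8 : Nat.card F ≤ 3 → 8 ≤ finrank F V)
    (hm : Nat.card F = 2 → finrank F V = 8 → ∀ u u' a a' b b', Φ.B e u = 0 → Φ.B e a = 0 →
      Φ.B e b = 0 → ¬ Φ.Hyp3 u u' a a' b b') : Rig Φ σ e (hp Φ ⊤ e f) := by
  intro u hu u0 x hx γ hγ hγu
  have hW : Φ.ND (hp Φ ⊤ e f) := Φ.nd_top.inf_hyp trivial trivial he hf hef
  have d1 := finrank_hp_add_two (Y := ⊤) trivial trivial he hef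
  rw [finrank_top] at d1
  have qu : Φ.Q u = 0 := by rw [← hx.valid.norm, map_zero]
  obtain ⟨u', hu', qu', huu⟩ := exists_partner hu qu (hW.exists_ne hu u0)
  have hWu : Φ.ND (hp Φ (hp Φ ⊤ e f) u u') := hW.inf_hyp hu hu' qu qu' huu
  have d2 := finrank_hp_add_two hu hu' qu huu
  have pW : ∀ w ∈ hp Φ (hp Φ ⊤ e f) u u', Φ.B e w = 0 ∧ Φ.B f w = 0 ∧ Φ.B u w = 0 ∧ Φ.B u' w = 0 :=
    fun w hw => ⟨(mem_hp.1 (mem_hp.1 hw).1).2.1, (mem_hp.1 (mem_hp.1 hw).1).2.2,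
      (mem_hp.1 hw).2.1, (mem_hp.1 hw).2.2⟩
  have cm : ∀ a w c g, IsE Φ a w c g → Φ.B e a = 0 → Φ.B u a = 0 → w ∈ hp Φ (hp Φ ⊤ e f) u u' →
      Commute g (σ x) := fun a w c g hg a1 a2 hw => hx.commute_of_fix hg.mem_Iso
    (hg.apply_of_perp (Φ.perp_symm a1) (Φ.perp_symm (pW w hw).1))
    (hg.apply_of_perp (Φ.perp_symm a2) (Φ.perp_symm (pW w hw).2.2.1))
  refine commute_of_mem_NS h.central ((sup_le ?_ ?_ : _ ≤ NS σ x)
    (mem_sup_of_fix hW (Or.inr (by omega)) (by rw [S.d]; omega) hu hu' qu qu' huu hγ hγu))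
  · intro g hg
    obtain ⟨w, hw, c, hg⟩ := exists_isE_hp hu qu huu hg
    obtain ⟨b, hb, b0, qb⟩ := Φ.iso (hp Φ (hp Φ ⊤ e f) u u') (by rw [S.d]; omega)
    exact S.mem_of_inA hg (h.inA_NS_good qu hWu hb b0 qb (by omega) (fun x hx => (pW x hx).2.2.1)
      (fun w hw c g hg => cm _ _ _ _ hg (mem_hp.1 hu).2.1 (Φ.B_self qu) hw)
      (fun a ha w hw c g hg => cm _ _ _ _ hg (pW a ha).1 (pW a ha).2.2.1 hw) w hw)
  refine EGon_le_of_hp hWu fun a ha a' ha' qa qa' haa w hw c g hg => S.mem_of_inA hg ?_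
  have hWa : Φ.ND (hp Φ (hp Φ (hp Φ ⊤ e f) u u') a a') := hWu.inf_hyp ha ha' qa qa' haa
  have d3 := finrank_hp_add_two ha ha' qa haa
  obtain ⟨a1, a2, a3, a4⟩ := pW a ha
  obtain ⟨a5, a6, a7, a8⟩ := pW a' ha'
  have H1 : Hyp2 Φ e f a a' := ⟨he, hf, qa, qa', hef, haa, a1, a5, a2, a6⟩
  by_cases hq : Nat.card F ≤ 3
  swap
  · obtain ⟨l, l0, l1⟩ := exists_pow_ne_one_of_lt (F := F) two_pos (by omega)
    have H2 : Hyp2 Φ a a' u' u := ⟨qa, qa', qu', qu, haa, (S.symm _ _).trans huu,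
      Φ.perp_symm a4, Φ.perp_symm a3, Φ.perp_symm a8, Φ.perp_symm a7⟩
    obtain ⟨w1, w2, w3⟩ := mem_hp.1 hw
    obtain ⟨w4, w5, w6, w7⟩ := pW w w1
    refine h.inA_NS_scale qa w2 (fun s c g hg => cm _ _ _ _ hg a1 a3 (smul_mem _ _ w1))
      (mul_mem (H1.symm.h_EG l) (H2.h_EG l)) (hx.commute_of_scale
        (Φ.EG_le_Iso (mul_mem (H1.symm.h_EG l) (H2.h_EG l))) (inv_ne_zero l0) ?_ ?_ (by simp))
      (μ := l * l) (ν := 1) (mul_ne_zero l0 l0) ?_ ?_ (by rwa [S.σ, mul_one, ← pow_two])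
    · rw [mul_app, H2.h_fix (Φ.perp_symm a1) (Φ.perp_symm a5) (Φ.perp_symm (mem_hp.1 hu').2.1)
        (Φ.perp_symm (mem_hp.1 hu).2.1), H1.symm.h_y l0]
    · rw [mul_app, H2.h_y' l0, map_smul, H1.symm.h_fix (Φ.perp_symm a3) (Φ.perp_symm a7)
        (mem_hp.1 hu).2.1 (mem_hp.1 hu).2.2, smul_smul, ← map_mul, inv_mul_cancel₀ l0, map_one,
        one_smul]
    · rw [mul_app, H2.h_x l0, map_smul, H1.symm.h_x l0, smul_smul]
    · rw [mul_app, H2.h_fix w2 w3 w7 w6, H1.symm.h_fix w2 w3 w4 w5, one_smul]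
  have d4 := h8 hq
  have cm' : ∀ w ∈ hp Φ (hp Φ (hp Φ ⊤ e f) u u') a a', ∀ c g, IsE Φ a w c g → Commute g (σ x) :=
    fun w hw c g hg => cm _ _ _ _ hg a1 a3 (hp_le _ _ hw)
  by_cases hi : ∃ b ∈ hp Φ (hp Φ (hp Φ ⊤ e f) u u') a a', b ≠ 0 ∧ Φ.Q b = 0
  swap
  · obtain ⟨k, hk, k1, k2⟩ := S.exists_rot (by omega) hWa (by
      by_contra c; exact hi (Φ.iso _ (by rw [S.d]; omega))) (fun y hy qy => by
        by_contra c; exact hi ⟨y, hy, c, qy⟩)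
    obtain ⟨y, hy, rfl⟩ := k2 w hw
    obtain ⟨c', g', hg'⟩ := exists_isE qa (mem_hp.1 hy).2.1
    have := h.inA_NS hg' (cm' y hy _ _ hg') hk (hx.commute_of_fix (Φ.EG_le_Iso hk)
      (k1 e fun y hy => Φ.perp_symm (pW y (hp_le _ _ hy)).1)
      (k1 u fun y hy => Φ.perp_symm (pW y (hp_le _ _ hy)).2.2.1)) one_ne_zero
      (by rw [one_smul, k1 a fun y hy => Φ.perp_symm (mem_hp.1 hy).2.1])
    rwa [map_one, one_smul] at this
  obtain ⟨b, hb, b0, qb⟩ := hi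
  by_cases d5 : finrank F V = 8
  swap
  · exact h.inA_NS_good qa hWa hb b0 qb (by omega) (fun x hx => (mem_hp.1 hx).2.1) cm'
      (fun a ha w hw c g hg => cm _ _ _ _ hg (pW a (hp_le _ _ ha)).1 (pW a (hp_le _ _ ha)).2.2.1
        (hp_le _ _ hw)) w hw
  refine le_of_sing hWa hb b0 qb (dirs Φ (NS σ x) qa) (fun b hb qb => ?_) w hw
  by_cases b0 : b = 0
  · rw [b0]; exact zero_mem _
  obtain ⟨b', hb', qb', hbb⟩ := exists_partner hb qb (hWa.exists_ne hb b0)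
  obtain ⟨b1, b2, b3⟩ := mem_hp.1 hb
  obtain ⟨b4, b5, b6⟩ := mem_hp.1 hb'
  obtain ⟨c1, c2, c3, c4⟩ := pW b b1
  obtain ⟨c5, c6, c7, c8⟩ := pW b' b4
  have hq3 : Nat.card F = 3 := by
    have := two_le_card_field (F := F)
    by_contra c
    exact hm (by omega) d5 u u' a a' b b' (mem_hp.1 hu).2.1 a1 c1 ⟨qu, qu', qa, qa', qb, qb', huu,
      haa, hbb, a3, a7, a4, a8, c3, c7, c4, c8, b2, b5, b3, b6⟩
  obtain rfl : p = 3 := (Nat.prime_dvd_prime_iff_eq (CharP.char_is_prime F p) Nat.prime_three).1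
    ((CharP.cast_eq_zero_iff F p 3).1 (by simpa using (three_facts hq3).1))
  have H2 : Hyp2 Φ u u' b b' := ⟨qu, qu', qb, qb', huu, hbb, c3, c7, c4, c8⟩
  obtain ⟨g', hg'⟩ := exists_isE_zero qa b2 qb
  obtain ⟨y, rfl⟩ := h.lift hg'.mem_EG
  obtain ⟨k, hk⟩ := h.lift (mul_mem (H1.w_EG 1) (H2.w_EG 1))
  refine hg'.inA (mem_NS (commute_of_swap h.central (by rw [h.card]; decide) (g := k)
    (cm' b hb _ _ hg') ?_ ?_))
  · have := hg'.conj (h.iso k)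
    rw [hk, mul_app, mul_app, H2.w_fix a3 a4 (Φ.perp_symm b2) (Φ.perp_symm b5),
      H1.w_y one_ne_zero, H2.w_y one_ne_zero, one_smul, one_smul, H1.w_fix (mem_hp.1 hu).2.1
      (mem_hp.1 hu).2.2 (Φ.perp_symm a3) (Φ.perp_symm a7), ← hk] at this
    simpa using this.unique hx
  · have := hx.conj (h.iso k)
    rw [hk, mul_app, mul_app, H2.w_fix (Φ.perp_symm (mem_hp.1 hu).2.1)
      (Φ.perp_symm (mem_hp.1 hu').2.1) (Φ.perp_symm c1) (Φ.perp_symm c5),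
      H1.w_x one_ne_zero, H2.w_x one_ne_zero, map_smul, H1.w_fix c1 c2 b2 b3, ← hk] at this
    simpa using ((this.of_smul (by simp)).congr rfl (by simp [smul_smul]) (by simp)).unique hg'

omit [Finite Γ] [CharP F p] in
theorem com {u v : V} (hu : u ∈ hp Φ ⊤ e f) (hv : v ∈ hp Φ ⊤ e f) (u0 : u ≠ 0)
    (n : v ∉ span F {u}) (huv : Φ.B u v = 0) (x y : Γ) (hx : IsE Φ e u 0 (σ x))
    (hy : IsE Φ e v 0 (σ y)) : Commute x y := by
  have hW : Φ.ND (hp Φ ⊤ e f) := Φ.nd_top.inf_hyp trivial trivial he hf hef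
  have d1 := finrank_hp_add_two (Y := ⊤) trivial trivial he hef
  rw [finrank_top] at d1
  have qu : Φ.Q u = 0 := by rw [← hx.valid.norm, map_zero]
  have qv : Φ.Q v = 0 := by rw [← hy.valid.norm, map_zero]
  obtain ⟨u', hu', v', hv', H⟩ := exists_hyp2 hW hu hv u0 qu qv huv n
  have d2 := finrank_hp_add_two hu hu' qu H.xx'
  obtain ⟨w, hw, z, hz, e1⟩ := exists_B_eq_of_ne_bot ((hW.inf_hyp hu hu' qu H.qx' H.xx').inf_hyp
    (mem_hp.2 ⟨hv, H.xy, H.x'y⟩) (mem_hp.2 ⟨hv', H.xy', H.x'y'⟩) qv H.qy' H.yy')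
    (hp_ne_bot (Y := hp Φ (hp Φ ⊤ e f) u u') (by omega)) (-1)
  obtain ⟨w1, w2, -⟩ := mem_hp.1 hw
  obtain ⟨w3, w4, -⟩ := mem_hp.1 w1
  obtain ⟨z1, z2, -⟩ := mem_hp.1 hz
  obtain ⟨c, k, hk⟩ := exists_isE qv w2
  obtain ⟨c', g, hg⟩ := exists_isE he (mem_hp.1 (hp_le _ _ z1)).2.1
  have ke := hk.apply_of_perp (Φ.perp_symm (mem_hp.1 hv).2.1) (Φ.perp_symm (mem_hp.1 w3).2.1)
  have := h.inA_NS hg (hg.commute hx (S.symm _ _)) hk.mem_EG (hx.commute_of_fix hk.mem_Iso ke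
    (hk.apply_of_perp (Φ.perp_symm huv) (Φ.perp_symm w4))) one_ne_zero (by rw [one_smul, ke])
  rw [map_one, one_smul, hk.apply_of_perp' z2, e1, S.ε, one_mul, neg_one_smul, sub_neg_eq_add,
    add_sub_cancel_left] at this
  exact (commute_of_mem_NS h.central (S.mem_of_inA hy this)).symm

omit [Finite Γ] [CharP F p] h in
theorem pairs (h2 : (2 : F) = 0) {u v u' v' : V} (hu : u ∈ hp Φ ⊤ e f) (hv : v ∈ hp Φ ⊤ e f)
    (hu' : u' ∈ hp Φ ⊤ e f) (hv' : v' ∈ hp Φ ⊤ e f) (qu : Φ.Q u = 0) (qv : Φ.Q v = 0)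
    (qu' : Φ.Q u' = 0) (qv' : Φ.Q v' = 0) (u0 : u ≠ 0) (u0' : u' ≠ 0) (huv : Φ.B u v = 0)
    (huv' : Φ.B u' v' = 0) (n : v ∉ span F {u}) (n' : v' ∉ span F {u'}) :
    ∃ k ∈ EGon Φ (hp Φ ⊤ e f), k u = u' ∧ k v = v' := by
  have hW : Φ.ND (hp Φ ⊤ e f) := Φ.nd_top.inf_hyp trivial trivial he hf hef
  have d1 := finrank_hp_add_two (Y := ⊤) trivial trivial he hef
  rw [finrank_top] at d1
  obtain ⟨k, hk, rfl⟩ := (hW.big (by rw [S.d]; omega)).move_sing (hasOn_EGon _) hu hu' qu qu'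
    (hW.exists_ne hu u0) (hW.exists_ne hu' u0')
  have hI := EGon_le_Iso hk
  have n1 : k v ∉ span F {k u} := fun h => n (by
    obtain ⟨a, ha⟩ := mem_span_singleton.1 h
    exact mem_span_singleton.2 ⟨a, k.injective (by rw [map_smul, ha])⟩)
  obtain ⟨k', hk', a, a0, e1⟩ := exists_move_line hW (Or.inr (by omega)) hu' (y := k v) (y' := v')
    (mem_inf.2 ⟨stab_apply (EGon_le_stab le_rfl hk) hv, (Iso.B hI u v).trans huv⟩)
    (mem_inf.2 ⟨hv', huv'⟩) ((Iso.Q hI v).trans qv) qv' n1 n'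
  obtain ⟨u'', hu'', v'', hv'', H⟩ := exists_hyp2 hW hu' hv' u0' qu' qv' huv' n'
  have : CharP F 2 := CharTwo.of_one_ne_zero_of_two_eq_zero one_ne_zero h2
  obtain ⟨s, hs⟩ := FiniteField.isSquare_of_char_two (F := F) (ringChar.eq F 2) a
  have s0 : s ≠ 0 := by rintro rfl; exact a0 (by simpa using hs)
  have q1 : Φ.π 1 = Φ.Q (v' + v'') := by simp [Φ.add, qv', H.qy', H.yy']
  have q2 : Φ.π 1 = Φ.Q (s • (v' + a⁻¹ • v'')) := by
    simp only [Φ.smul, Φ.add, qv', H.qy', H.yy', Φ.bsimp, S.π, S.σ, hs]; field_simp; ring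
  have n0 : ∀ t : F, v' + t • v'' ≠ 0 := fun t c => by
    simpa [H.simp] using congrArg (fun x => Φ.B x v'') c
  have hr := refl_mul_inv_mem_EG (by rw [S.d]; omega) one_ne_zero q1 q2
    (by simpa using n0 1) (smul_ne_zero s0 (n0 _))
  have fx : ∀ z, Φ.B v' z = 0 → Φ.B v'' z = 0 →
      (refl one_ne_zero q1 * (refl one_ne_zero q2)⁻¹) z = z := fun z z1 z2 => by
    simp [mul_app, refl_apply, refl_inv_apply, z1, z2]
  refine ⟨refl one_ne_zero q1 * (refl one_ne_zero q2)⁻¹ * (k' * k), mul_mem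
    (mem_EGon_hp_of_fix Φ.nd_top (Or.inr (by rw [finrank_top]; omega))
      (by rw [finrank_top, S.d]; omega) trivial trivial he hf hef (EGon_top (Φ := Φ) ▸ hr)
      (fx e (Φ.perp_symm (mem_hp.1 hv').2.1) (Φ.perp_symm (mem_hp.1 hv'').2.1))
      (fx f (Φ.perp_symm (mem_hp.1 hv').2.2) (Φ.perp_symm (mem_hp.1 hv'').2.2)))
    (mul_mem (EGon_mono inf_le_left hk') hk), ?_, ?_⟩
  · rw [mul_app, mul_app k', EGon_fix hk' fun y hy => Φ.perp_symm hy.2, fx _ H.simp.2.2.2.2.2.2.2.2.2.2.2.2.1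
      H.simp.2.2.2.2.2.2.2.2.2.2.2.2.2.1]
  · rw [mul_app, mul_app k', e1, mul_app, refl_inv_apply, refl_apply]
    simp only [Φ.bsimp, H.simp, S.ε, S.σ, hs]
    match_scalars <;> field_simp <;> ring

theorem star (h8 : Nat.card F ≤ 3 → 8 ≤ finrank F V)
    (hm : Nat.card F = 2 → finrank F V = 8 → ∀ u u' a a' b b', Φ.B e u = 0 → Φ.B e a = 0 →
      Φ.B e b = 0 → ¬ Φ.Hyp3 u u' a a' b b') :
    ∃ X : Subgroup Γ, X ⊓ σ.ker = ⊥ ∧ X.map σ = QE Φ ⊤ e ∧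
      ∀ γ, σ γ ∈ EGon Φ (hp Φ ⊤ e f) → ∀ x ∈ X, γ * x * γ⁻¹ ∈ X := by
  have hW : Φ.ND (hp Φ ⊤ e f) := Φ.nd_top.inf_hyp trivial trivial he hf hef
  have d1 := finrank_hp_add_two (Y := ⊤) trivial trivial he hef
  rw [finrank_top] at d1
  obtain ⟨s, hs⟩ := h.exists_sec he hf hef (by rw [S.d]; omega) (S.rig h he hf hef h7 h8 hm) (by
    rcases (CharP.char_is_prime F p).eq_two_or_odd' with rfl | hodd
    · exact Or.inl fun u hu v hv u' hu' v' hv' => S.pairs he hf hef h7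
        (by simpa using CharP.cast_eq_zero F 2) hu hv hu' hv'
    · exact Or.inr ⟨hodd, fun u hu v hv => S.com h he hf hef h7 hu hv⟩)
  refine h.star_of_sec he hf hef (by rw [S.d]; omega) S.lamC ?_ hs
  have k1 : ∀ u ∈ hp Φ ⊤ e f, ∀ v ∈ hp Φ ⊤ e f, Φ.Q u = 0 → Φ.Q v = 0 → Commute (s u) (s v) := by
    intro u hu v hv qu qv
    by_cases huv : Φ.B u v = 0
    · exact (hs.add u hu v hv qu qv huv).symm.trans
        (by rw [add_comm, hs.add v hv u hu qv qu (Φ.perp_symm huv)])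
    have hb := smul_mem _ (Φ.B u v)⁻¹ hv
    have hub : Φ.B u ((Φ.B u v)⁻¹ • v) = 1 := by rw [Φ.B_smul_right, inv_mul_cancel₀ huv]
    have d2 := finrank_hp_add_two hu hb qu hub
    have hW' : Φ.ND (hp Φ (hp Φ ⊤ e f) u ((Φ.B u v)⁻¹ • v)) :=
      hW.inf_hyp hu hb qu (Φ.Q_smul_zero qv _) hub
    obtain ⟨a, ha, b, hb', qa, qb, hab⟩ := hW'.exists_hyp (by rw [S.d]; omega)
    obtain ⟨a1, a2, a3⟩ := mem_hp.1 ha
    obtain ⟨b1, b2, b3⟩ := mem_hp.1 hb'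
    rw [Φ.B_smul_left, mul_eq_zero, S.σ, inv_eq_zero] at a3 b3
    replace a3 := a3.resolve_left huv
    replace b3 := b3.resolve_left huv
    have hb2 := smul_mem _ (-Φ.B u v) b1
    have qb2 := Φ.Q_smul_zero qb (-Φ.B u v)
    have e1 := hs.add (a + v) (add_mem a1 hv) (u + (-Φ.B u v) • b) (add_mem hu hb2)
      (by rw [Φ.Q_add_perp (Φ.perp_symm a3), qa, qv, add_zero])
      (by rw [Φ.Q_add_perp (by simp [b2]), qu, qb2, add_zero])
      (by simp [Φ.perp_symm a2, hab, b3, S.symm u v])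
    have e2 := hs.add (a + u) (add_mem a1 hu) (v + (-Φ.B u v) • b) (add_mem hv hb2)
      (by rw [Φ.Q_add_perp (Φ.perp_symm a2), qa, qu, add_zero])
      (by rw [Φ.Q_add_perp (by simp [b3]), qv, qb2, add_zero])
      (by simp [Φ.perp_symm a3, hab, b2])
    rw [show a + u + (v + (-Φ.B u v) • b) = a + v + (u + (-Φ.B u v) • b) by abel, e1,
      hs.add a a1 v hv qa qv (Φ.perp_symm a3), hs.add a a1 u hu qa qu (Φ.perp_symm a2),
      hs.add u hu _ hb2 qu qb2 (by simp [b2]), hs.add v hv _ hb2 qv qb2 (by simp [b3]),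
      ← mul_assoc, ← mul_assoc, mul_left_inj, mul_assoc, mul_assoc, mul_right_inj] at e2
    exact e2.symm
  obtain ⟨a, ha, a0, qa⟩ := Φ.iso (hp Φ ⊤ e f) (by rw [S.d]; omega)
  have k2 : ∀ y, (∀ u ∈ hp Φ ⊤ e f, Φ.Q u = 0 → Commute (s u) y) → ∀ x ∈ XQ Φ σ e, Commute x y :=
    fun y hy x hx => by
      obtain ⟨w, hw, c, hg⟩ := exists_isE_hp (Y := ⊤) trivial he hef hx
      exact commute_of_mem_NS h.central (mem_of_sing hW ha a0 qa he
        (fun u hu qu => (hs.isE u hu qu).inA (mem_NS (hy u hu qu))) (S.center _ e) hw hg)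
  rw [eq_bot_iff]
  refine inf_le_left.trans (Subgroup.commutator_le.2 fun x hx y hy => ?_)
  exact (k2 y (fun u hu qu => (k2 (s u) (fun v hv qv => k1 v hv u hu qv qu) y hy).symm)
    x hx).commutator_eq

end IsO

end Cfsg.Agent.Mult
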