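import Cfsg.Agent.Mult.StarO

/-!
The `p`-part of the multiplier of the orthogonal groups, with a sharper exceptional hypothesis.
-/

set_option autoImplicit false

namespace Cfsg.Agent.Mult

open Cfsg.Agent.Class.Max Cfsg.Agent.Class.Max.Fm Cfsg.Agent.RootSub Module Submodule
open scoped commutatorElement

variable {F V : Type*} [Field F] [AddCommGroup V] [Module F V] {Φ : Fm F V}
variable {Γ : Type*} [Group Γ] {σ : Γ →* (V ≃ₗ[F] V)} {p : ℕ}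

namespace IsO

variable (S : IsO Φ)
include S

variable [Finite F] [Finite V] [Finite Γ] [CharP F p] (h : CExt Φ σ p) {e f : V} (he : Φ.Q e = 0)
  (hf : Φ.Q f = 0) (hef : Φ.B e f = 1) (h7 : 7 ≤ finrank F V)
include h he hf hef h7

theorem rig' (h8 : Nat.card F ≤ 3 → 8 ≤ finrank F V)
    (hm : Nat.card F = 2 → finrank F V = 8 → ∀ u ∈ hp Φ ⊤ e f, ∀ a ∈ hp Φ ⊤ e f,
      ∀ b ∈ hp Φ ⊤ e f, ∀ u' a' b', ¬ Φ.Hyp3 u u' a a' b b') : Rig Φ σ e (hp Φ ⊤ e f) := by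
  intro u hu u0 x hx γ hγ hγu
  have hW : Φ.ND (hp Φ ⊤ e f) := Φ.nd_top.inf_hyp trivial trivial he hf hef
  have d1 := finrank_hp_add_two (Y := ⊤) trivial trivial he hef
  rw [finrank_top] at d1
  have qu : Φ.Q u = 0 := by rw [← hx.valid.norm, map_zero]
  obtain ⟨u', hu', qu', huu⟩ := exists_partner hu qu (hW.exists_ne hu u0)
  have hWu : Φ.ND (hp Φ (hp Φ ⊤ e f) u u') := hW.inf_hyp hu hu' qu qu' huu
  have d2 := finrank_hp_add_two hu hu' qu huu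
  have pW : ∀ w ∈ hp Φ (hp Φ ⊤ e f) u u', Φ.B e w = 0 ∧ Φ.B f w = 0 ∧ Φ.B u w = 0 ∧ Φ.B u' w = 0 :=
    fun w hw => ⟨(mem_hp.1 (mem_hp.1 hw).1).2.1, (mem_hp.1 (mem_hp.1 hw).1).2.2,
      (mem_hp.1 hw).2.1, (mem_hp.1 hw).2.2⟩
  have cm : ∀ a w c g, IsE Φ a w c g → Φ.B e a = 0 → Φ.B u a = 0 → w ∈ hp Φ (hp Φ ⊤ e f) u u' →
      Commute g (σ x) := fun a w c g hg a1 a2 hw => hx.commute_of_fix hg.mem_Iso
    (hg.apply_of_perp (Φ.perp_symm a1) (Φ.perp_symm (pW w hw).1))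
    (hg.apply_of_perp (Φ.perp_symm a2) (Φ.perp_symm (pW w hw).2.2.1))
  refine commute_of_mem_NS h.central ((sup_le ?_ ?_ : _ ≤ NS σ x)
    (mem_sup_of_fix hW (Or.inr (by omega)) (by rw [S.d]; omega) hu hu' qu qu' huu hγ hγu))
  · intro g hg
    obtain ⟨w, hw, c, hg⟩ := exists_isE_hp hu qu huu hg
    obtain ⟨b, hb, b0, qb⟩ := Φ.iso (hp Φ (hp Φ ⊤ e f) u u') (by rw [S.d]; omega)
    exact S.mem_of_inA hg (h.inA_NS_good qu hWu hb b0 qb (by omega) (fun x hx => (pW x hx).2.2.1)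
      (fun w hw c g hg => cm _ _ _ _ hg (mem_hp.1 hu).2.1 (Φ.B_self qu) hw)
      (fun a ha w hw c g hg => cm _ _ _ _ hg (pW a ha).1 (pW a ha).2.2.1 hw) w hw)
  refine EGon_le_of_hp hWu fun a ha a' ha' qa qa' haa w hw c g hg => S.mem_of_inA hg ?_
  have hWa : Φ.ND (hp Φ (hp Φ (hp Φ ⊤ e f) u u') a a') := hWu.inf_hyp ha ha' qa qa' haa
  have d3 := finrank_hp_add_two ha ha' qa haa
  obtain ⟨a1, a2, a3, a4⟩ := pW a ha
  obtain ⟨a5, a6, a7, a8⟩ := pW a' ha'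
  have H1 : Hyp2 Φ e f a a' := ⟨he, hf, qa, qa', hef, haa, a1, a5, a2, a6⟩
  by_cases hq : Nat.card F ≤ 3
  swap
  · obtain ⟨l, l0, l1⟩ := exists_pow_ne_one_of_lt (F := F) two_pos (by omega)
    have H2 : Hyp2 Φ a a' u' u := ⟨qa, qa', qu', qu, haa, (S.symm _ _).trans huu,
      Φ.perp_symm a4, Φ.perp_symm a3, Φ.perp_symm a8, Φ.perp_symm a7⟩
    obtain ⟨w1, w2, w3⟩ := mem_hp.1 hw
    obtain ⟨w4, w5, w6, w7⟩ := pW w w1
    refine h.inA_NS_scale qa w2 (fun s c g hg => cm _ _ _ _ hg a1 a3 (smul_mem _ _ w1))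
      (mul_mem (H1.symm.h_EG l) (H2.h_EG l)) (hx.commute_of_scale
        (Φ.EG_le_Iso (mul_mem (H1.symm.h_EG l) (H2.h_EG l))) (inv_ne_zero l0) ?_ ?_ (by simp))
      (μ := l * l) (ν := 1) (mul_ne_zero l0 l0) ?_ ?_ (by rwa [S.σ, mul_one, ← pow_two])
    · rw [mul_app, H2.h_fix (Φ.perp_symm a1) (Φ.perp_symm a5) (Φ.perp_symm (mem_hp.1 hu').2.1)
        (Φ.perp_symm (mem_hp.1 hu).2.1), H1.symm.h_y l0]
    · rw [mul_app, H2.h_y' l0, map_smul, H1.symm.h_fix (Φ.perp_symm a3) (Φ.perp_symm a7)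
        (mem_hp.1 hu).2.1 (mem_hp.1 hu).2.2, smul_smul, ← map_mul, inv_mul_cancel₀ l0, map_one,
        one_smul]
    · rw [mul_app, H2.h_x l0, map_smul, H1.symm.h_x l0, smul_smul]
    · rw [mul_app, H2.h_fix w2 w3 w7 w6, H1.symm.h_fix w2 w3 w4 w5, one_smul]
  have d4 := h8 hq
  have cm' : ∀ w ∈ hp Φ (hp Φ (hp Φ ⊤ e f) u u') a a', ∀ c g, IsE Φ a w c g → Commute g (σ x) :=
    fun w hw c g hg => cm _ _ _ _ hg a1 a3 (hp_le _ _ hw)
  by_cases hi : ∃ b ∈ hp Φ (hp Φ (hp Φ ⊤ e f) u u') a a', b ≠ 0 ∧ Φ.Q b = 0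
  swap
  · obtain ⟨k, hk, k1, k2⟩ := S.exists_rot (by omega) hWa (by
      by_contra c; exact hi (Φ.iso _ (by rw [S.d]; omega))) (fun y hy qy => by
        by_contra c; exact hi ⟨y, hy, c, qy⟩)
    obtain ⟨y, hy, rfl⟩ := k2 w hw
    obtain ⟨c', g', hg'⟩ := exists_isE qa (mem_hp.1 hy).2.1
    have := h.inA_NS hg' (cm' y hy _ _ hg') hk (hx.commute_of_fix (Φ.EG_le_Iso hk)
      (k1 e fun y hy => Φ.perp_symm (pW y (hp_le _ _ hy)).1)
      (k1 u fun y hy => Φ.perp_symm (pW y (hp_le _ _ hy)).2.2.1)) one_ne_zero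
      (by rw [one_smul, k1 a fun y hy => Φ.perp_symm (mem_hp.1 hy).2.1])
    rwa [map_one, one_smul] at this
  obtain ⟨b, hb, b0, qb⟩ := hi
  by_cases d5 : finrank F V = 8
  swap
  · exact h.inA_NS_good qa hWa hb b0 qb (by omega) (fun x hx => (mem_hp.1 hx).2.1) cm'
      (fun a ha w hw c g hg => cm _ _ _ _ hg (pW a (hp_le _ _ ha)).1 (pW a (hp_le _ _ ha)).2.2.1
        (hp_le _ _ hw)) w hw
  refine le_of_sing hWa hb b0 qb (dirs Φ (NS σ x) qa) (fun b hb qb => ?_) w hw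
  by_cases b0 : b = 0
  · rw [b0]; exact zero_mem _
  obtain ⟨b', hb', qb', hbb⟩ := exists_partner hb qb (hWa.exists_ne hb b0)
  obtain ⟨b1, b2, b3⟩ := mem_hp.1 hb
  obtain ⟨b4, b5, b6⟩ := mem_hp.1 hb'
  obtain ⟨c1, c2, c3, c4⟩ := pW b b1
  obtain ⟨c5, c6, c7, c8⟩ := pW b' b4
  have hq3 : Nat.card F = 3 := by
    have := two_le_card_field (F := F)
    by_contra c
    exact hm (by omega) d5 u hu a (hp_le _ _ ha) b (hp_le _ _ b1) u' a' b' ⟨qu, qu', qa, qa', qb, qb', huu,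
      haa, hbb, a3, a7, a4, a8, c3, c7, c4, c8, b2, b5, b3, b6⟩
  obtain rfl : p = 3 := (Nat.prime_dvd_prime_iff_eq (CharP.char_is_prime F p) Nat.prime_three).1
    ((CharP.cast_eq_zero_iff F p 3).1 (by simpa using (three_facts hq3).1))
  have H2 : Hyp2 Φ u u' b b' := ⟨qu, qu', qb, qb', huu, hbb, c3, c7, c4, c8⟩
  obtain ⟨g', hg'⟩ := exists_isE_zero qa b2 qb
  obtain ⟨y, rfl⟩ := h.lift hg'.mem_EG
  obtain ⟨k, hk⟩ := h.lift (mul_mem (H1.w_EG 1) (H2.w_EG 1))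
  refine hg'.inA (mem_NS (commute_of_swap h.central (by rw [h.card]; decide) (g := k)
    (cm' b hb _ _ hg') ?_ ?_))
  · have := hg'.conj (h.iso k)
    rw [hk, mul_app, mul_app, H2.w_fix a3 a4 (Φ.perp_symm b2) (Φ.perp_symm b5),
      H1.w_y one_ne_zero, H2.w_y one_ne_zero, one_smul, one_smul, H1.w_fix (mem_hp.1 hu).2.1
      (mem_hp.1 hu).2.2 (Φ.perp_symm a3) (Φ.perp_symm a7), ← hk] at this
    simpa using this.unique hx
  · have := hx.conj (h.iso k)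
    rw [hk, mul_app, mul_app, H2.w_fix (Φ.perp_symm (mem_hp.1 hu).2.1)
      (Φ.perp_symm (mem_hp.1 hu').2.1) (Φ.perp_symm c1) (Φ.perp_symm c5),
      H1.w_x one_ne_zero, H2.w_x one_ne_zero, map_smul, H1.w_fix c1 c2 b2 b3, ← hk] at this
    simpa using ((this.of_smul (by simp)).congr rfl (by simp [smul_smul]) (by simp)).unique hg'
theorem star' (h8 : Nat.card F ≤ 3 → 8 ≤ finrank F V)
    (hm : Nat.card F = 2 → finrank F V = 8 → ∀ u ∈ hp Φ ⊤ e f, ∀ a ∈ hp Φ ⊤ e f,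
      ∀ b ∈ hp Φ ⊤ e f, ∀ u' a' b', ¬ Φ.Hyp3 u u' a a' b b') :
    ∃ X : Subgroup Γ, X ⊓ σ.ker = ⊥ ∧ X.map σ = QE Φ ⊤ e ∧
      ∀ γ, σ γ ∈ EGon Φ (hp Φ ⊤ e f) → ∀ x ∈ X, γ * x * γ⁻¹ ∈ X := by
  have hW : Φ.ND (hp Φ ⊤ e f) := Φ.nd_top.inf_hyp trivial trivial he hf hef
  have d1 := finrank_hp_add_two (Y := ⊤) trivial trivial he hef
  rw [finrank_top] at d1
  obtain ⟨s, hs⟩ := h.exists_sec he hf hef (by rw [S.d]; omega) (S.rig' h he hf hef h7 h8 hm) (by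
    rcases (CharP.char_is_prime F p).eq_two_or_odd' with rfl | hodd
    · exact Or.inl fun u hu v hv u' hu' v' hv' => S.pairs he hf hef h7
        (by simpa using CharP.cast_eq_zero F 2) hu hv hu' hv'
    · exact Or.inr ⟨hodd, fun u hu v hv => S.com h he hf hef h7 hu hv⟩)
  refine h.star_of_sec he hf hef (by rw [S.d]; omega) S.lamC ?_ hs
  have k1 : ∀ u ∈ hp Φ ⊤ e f, ∀ v ∈ hp Φ ⊤ e f, Φ.Q u = 0 → Φ.Q v = 0 → Commute (s u) (s v) := by
    intro u hu v hv qu qv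
    by_cases huv : Φ.B u v = 0
    · exact (hs.add u hu v hv qu qv huv).symm.trans
        (by rw [add_comm, hs.add v hv u hu qv qu (Φ.perp_symm huv)])
    have hb := smul_mem _ (Φ.B u v)⁻¹ hv
    have hub : Φ.B u ((Φ.B u v)⁻¹ • v) = 1 := by rw [Φ.B_smul_right, inv_mul_cancel₀ huv]
    have d2 := finrank_hp_add_two hu hb qu hub
    have hW' : Φ.ND (hp Φ (hp Φ ⊤ e f) u ((Φ.B u v)⁻¹ • v)) :=
      hW.inf_hyp hu hb qu (Φ.Q_smul_zero qv _) hub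
    obtain ⟨a, ha, b, hb', qa, qb, hab⟩ := hW'.exists_hyp (by rw [S.d]; omega)
    obtain ⟨a1, a2, a3⟩ := mem_hp.1 ha
    obtain ⟨b1, b2, b3⟩ := mem_hp.1 hb'
    rw [Φ.B_smul_left, mul_eq_zero, S.σ, inv_eq_zero] at a3 b3
    replace a3 := a3.resolve_left huv
    replace b3 := b3.resolve_left huv
    have hb2 := smul_mem _ (-Φ.B u v) b1
    have qb2 := Φ.Q_smul_zero qb (-Φ.B u v)
    have e1 := hs.add (a + v) (add_mem a1 hv) (u + (-Φ.B u v) • b) (add_mem hu hb2)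
      (by rw [Φ.Q_add_perp (Φ.perp_symm a3), qa, qv, add_zero])
      (by rw [Φ.Q_add_perp (by simp [b2]), qu, qb2, add_zero])
      (by simp [Φ.perp_symm a2, hab, b3, S.symm u v])
    have e2 := hs.add (a + u) (add_mem a1 hu) (v + (-Φ.B u v) • b) (add_mem hv hb2)
      (by rw [Φ.Q_add_perp (Φ.perp_symm a2), qa, qu, add_zero])
      (by rw [Φ.Q_add_perp (by simp [b3]), qv, qb2, add_zero])
      (by simp [Φ.perp_symm a3, hab, b2])
    rw [show a + u + (v + (-Φ.B u v) • b) = a + v + (u + (-Φ.B u v) • b) by abel, e1,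
      hs.add a a1 v hv qa qv (Φ.perp_symm a3), hs.add a a1 u hu qa qu (Φ.perp_symm a2),
      hs.add u hu _ hb2 qu qb2 (by simp [b2]), hs.add v hv _ hb2 qv qb2 (by simp [b3]),
      ← mul_assoc, ← mul_assoc, mul_left_inj, mul_assoc, mul_assoc, mul_right_inj] at e2
    exact e2.symm
  obtain ⟨a, ha, a0, qa⟩ := Φ.iso (hp Φ ⊤ e f) (by rw [S.d]; omega)
  have k2 : ∀ y, (∀ u ∈ hp Φ ⊤ e f, Φ.Q u = 0 → Commute (s u) y) → ∀ x ∈ XQ Φ σ e, Commute x y :=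
    fun y hy x hx => by
      obtain ⟨w, hw, c, hg⟩ := exists_isE_hp (Y := ⊤) trivial he hef hx
      exact commute_of_mem_NS h.central (mem_of_sing hW ha a0 qa he
        (fun u hu qu => (hs.isE u hu qu).inA (mem_NS (hy u hu qu))) (S.center _ e) hw hg)
  rw [eq_bot_iff]
  refine inf_le_left.trans (Subgroup.commutator_le.2 fun x hx y hy => ?_)
  exact (k2 y (fun u hu qu => (k2 (s u) (fun v hv qv => k1 v hv u hu qv qu) y hy).symm)
    x hx).commutator_eq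

end IsO

end Cfsg.Agent.Mult
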